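/-
Lifting involutions through a central extension by a group of order two: a class function on involutions, and a
product relation of odd length among pairwise commuting conjugates, force lifts of commuting conjugates to commute
and to be involutions.
-/
import Mathlib

set_option autoImplicit false

namespace Cfsg.Agent.Lib.Fischer.LiftInvol

variable {C X : Type*} [Group C] [Group X]

/-- A surjection with kernel generated by a central involution. -/
structure CExt (π : C →* X) (d : C) : Prop where
  surj : Function.Surjective π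
  ne : d ≠ 1
  sq : d * d = 1
  cent : ∀ c, c * d = d * c
  map_d : π d = 1
  ker : ∀ c, π c = 1 → c = 1 ∨ c = d

namespace CExt

variable {π : C →* X} {d : C} (E : CExt π d)
include E

theorem sq_cases {a : C} (h : π a * π a = 1) : a * a = 1 ∨ a * a = d :=
  E.ker _ (by rw [map_mul, h])

theorem sq_eq_of_map_eq {a b : C} (h : π a = π b) : a * a = b * b := by
  have h1 : π (a⁻¹ * b) = 1 := by rw [map_mul, map_inv, h, inv_mul_cancel]
  rcases E.ker _ h1 with h2 | h2
  · have : b = a := by
      calc b = a * (a⁻¹ * b) := by group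
        _ = a := by rw [h2, mul_one]
    rw [this]
  · have : b = a * d := by
      calc b = a * (a⁻¹ * b) := by group
        _ = a * d := by rw [h2]
    rw [this]
    calc a * a = a * a * (d * d) := by rw [E.sq, mul_one]
      _ = a * d * (a * d) := by
        rw [mul_assoc a d, ← mul_assoc d a d, ← E.cent a]
        group

theorem sq_sq {a : C} (h : π a * π a = 1) : a * a * (a * a) = 1 := by
  rcases E.sq_cases h with h1 | h1 <;> rw [h1]
  · simp
  · exact E.sq

/-- The square of a lift is a class function on involutions. -/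
theorem sq_conj {a b : C} (h : π a * π a = 1) (hc : IsConj (π a) (π b)) : a * a = b * b := by
  obtain ⟨g, hg⟩ := isConj_iff.1 hc
  obtain ⟨g', rfl⟩ := E.surj g
  have h1 : π (g' * a * g'⁻¹) = π b := by rw [map_mul, map_mul, map_inv, hg]
  have h2 := E.sq_eq_of_map_eq h1
  rw [← h2]
  have h3 : g' * a * g'⁻¹ * (g' * a * g'⁻¹) = g' * (a * a) * g'⁻¹ := by group
  rw [h3]
  rcases E.sq_cases h with h4 | h4 <;> rw [h4]
  · simp
  · rw [E.cent g']
    group

theorem comm_cases {a b : C} (h : π a * π b = π b * π a) : a * b = b * a ∨ a * b = d * (b * a) := by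
  have h1 : π (a * b * (b * a)⁻¹) = 1 := by
    rw [map_mul, map_inv, map_mul, map_mul, h, mul_inv_cancel]
  rcases E.ker _ h1 with h2 | h2
  · left
    exact mul_inv_eq_one.1 h2
  · right
    exact mul_inv_eq_iff_eq_mul.1 h2

/-- The square of a product of two commuting lifts. -/
theorem comm_iff {a b : C} (hab : π a * π b = π b * π a) (ha : π a * π a = 1) (hs : a * a = b * b)
    (h1 : a * b * (a * b) = 1) : a * b = b * a := by
  rcases E.comm_cases hab with h | h
  · exact h
  · exfalso
    apply E.ne
    have h2 : a * b * (a * b) = d * (a * a) * (b * b) := by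
      calc a * b * (a * b) = d * (b * a) * (a * b) := by rw [← h]
        _ = d * (b * (a * a) * b) := by group
        _ = d * ((a * a) * (b * b)) := by
          rcases E.sq_cases ha with h3 | h3
          · rw [h3]; group
          · rw [h3]
            have := E.cent b
            rw [show b * d * b = (b * d) * b by rfl, this]
            group
        _ = _ := by group
    rw [h1, ← hs, mul_assoc, E.sq_sq ha, mul_one] at h2
    exact h2.symm

theorem anti_of {a b : C} (hab : π a * π b = π b * π a) (ha : π a * π a = 1) (hs : a * a = b * b)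
    (h1 : a * b * (a * b) = d) : a * b = d * (b * a) := by
  rcases E.comm_cases hab with h | h
  · exfalso
    apply E.ne
    have h2 : a * b * (a * b) = (a * a) * (b * b) := by
      calc a * b * (a * b) = a * (b * a) * b := by group
        _ = a * (a * b) * b := by rw [← h]
        _ = _ := by group
    rw [h1, ← hs, E.sq_sq ha] at h2
    exact h2
  · exact h

end CExt

/-- Conjugation of a list product when each factor changes by a central factor. -/
theorem conj_prod {d w : C} (hc : ∀ c, c * d = d * c) (l : List C) (h : ∀ y ∈ l, w * y * w⁻¹ = d * y) :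
    w * l.prod * w⁻¹ = d ^ l.length * l.prod := by
  induction l with
  | nil => simp
  | cons y l ih =>
    rw [List.prod_cons, List.length_cons]
    have h1 := h y (by simp)
    have h2 := ih (fun z hz => h z (by simp [hz]))
    calc w * (y * l.prod) * w⁻¹ = (w * y * w⁻¹) * (w * l.prod * w⁻¹) := by group
      _ = d * y * (d ^ l.length * l.prod) := by rw [h1, h2]
      _ = d * (y * d ^ l.length) * l.prod := by group
      _ = d ^ (l.length + 1) * (y * l.prod) := by
        have h3 : y * d ^ l.length = d ^ l.length * y := by
          have : Commute y d := hc y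
          exact (this.pow_right _).eq
        rw [h3, pow_succ']
        group

/-- The square of a product of pairwise commuting elements with a common square. -/
theorem sq_prod {e : C} (l : List C) (h : ∀ y ∈ l, y * y = e) (hp : l.Pairwise Commute) :
    l.prod * l.prod = e ^ l.length := by
  induction l with
  | nil => simp
  | cons y l ih =>
    rw [List.prod_cons, List.length_cons]
    have h1 := h y (by simp)
    have h2 := ih (fun z hz => h z (by simp [hz])) (List.pairwise_cons.1 hp).2
    have h3 : Commute y l.prod := Commute.list_prod_right _ _ (fun z hz => (List.pairwise_cons.1 hp).1 z hz)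
    calc y * l.prod * (y * l.prod) = y * (l.prod * y) * l.prod := by group
      _ = y * (y * l.prod) * l.prod := by rw [h3.eq]
      _ = (y * y) * (l.prod * l.prod) := by group
      _ = e ^ (l.length + 1) := by rw [h1, h2, pow_succ']

/-- **Main lemma.** -/
theorem main {π : C →* X} {d : C} (E : CExt π d) {t z w : X} {T : List X} (ht : t * t = 1) (hz : z * z = 1)
    (hodd : Odd T.length) (hprod : T.prod = 1) (hwc : IsConj t w) (h1 : ∀ a ∈ T, IsConj t a)
    (hwT : ∀ a ∈ T, w * a = a * w ∧ IsConj z (w * a))
    (hT : T.Pairwise (fun a b => a * b = b * a ∧ IsConj z (a * b))) :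
    (∀ y, π y = z → y * y = 1) ∧ (∀ y, π y = t → y * y = 1) := by
  obtain ⟨zh, hzh⟩ := E.surj z
  obtain ⟨t', ht'⟩ := E.surj t
  obtain ⟨wh, hwh⟩ := E.surj w
  set s := Function.surjInv E.surj with hs
  have hss : ∀ a, π (s a) = a := Function.surjInv_eq E.surj
  have hinvol : ∀ {a : X}, IsConj t a → a * a = 1 := by
    intro a ha
    obtain ⟨g, rfl⟩ := isConj_iff.1 ha
    calc g * t * g⁻¹ * (g * t * g⁻¹) = g * (t * t) * g⁻¹ := by group
      _ = 1 := by rw [ht]; group
  have hinvolz : ∀ {a : X}, IsConj z a → a * a = 1 := by
    intro a ha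
    obtain ⟨g, rfl⟩ := isConj_iff.1 ha
    calc g * z * g⁻¹ * (g * z * g⁻¹) = g * (z * z) * g⁻¹ := by group
      _ = 1 := by rw [hz]; group
  have ht2 : π t' * π t' = 1 := by rw [ht', ht]
  have hz2 : π zh * π zh = 1 := by rw [hzh, hz]
  -- squares of lifts of conjugates of `t`
  have hst : ∀ {a : X} {ah : C}, IsConj t a → π ah = a → ah * ah = t' * t' := by
    intro a ah ha hh
    symm
    apply E.sq_conj ht2
    rw [ht', hh]
    exact ha
  have hsz : ∀ {a : X} {ah : C}, IsConj z a → π ah = a → ah * ah = zh * zh := by
    intro a ah ha hh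
    symm
    apply E.sq_conj hz2
    rw [hzh, hh]
    exact ha
  set L := T.map s with hL
  have hLT : L.map π = T := by
    rw [hL, List.map_map]
    conv_rhs => rw [← List.map_id T]
    exact List.map_congr_left (fun a _ => hss a)
  have hLp : π L.prod = 1 := by
    rw [map_list_prod, hLT, hprod]
  have hLc : ∀ c, c * L.prod = L.prod * c := by
    intro c
    rcases E.ker _ hLp with h | h <;> rw [h]
    · simp
    · exact E.cent c
  have hLlen : L.length = T.length := by rw [hL, List.length_map]
  have hLsq : L.prod * L.prod = 1 := by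
    rcases E.ker _ hLp with h | h <;> rw [h]
    · simp
    · exact E.sq
  have hpow_odd : ∀ {e : C}, e * e = 1 → e ^ T.length = e := by
    intro e he
    obtain ⟨k, hk⟩ := hodd
    rw [hk, pow_succ, pow_mul, pow_two, he, one_pow, one_mul]
  -- Step 1
  have hf : zh * zh = 1 := by
    rcases E.sq_cases hz2 with hf | hf
    · exact hf
    · exfalso
      have hconj : ∀ y ∈ L, wh * y * wh⁻¹ = d * y := by
        intro y hy
        obtain ⟨a, ha, rfl⟩ := List.mem_map.1 hy
        obtain ⟨hc1, hc2⟩ := hwT a ha
        have h3 : wh * s a * (wh * s a) = d := by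
          rw [hsz hc2 (by rw [map_mul, hwh, hss]), hf]
        have h4 : π wh * π (s a) = π (s a) * π wh := by rw [hwh, hss, hc1]
        have h5 : π wh * π wh = 1 := by rw [hwh]; exact hinvol hwc
        have h6 : wh * wh = s a * s a := by
          rw [hst hwc hwh, hst (h1 a ha) (hss a)]
        have h7 := E.anti_of h4 h5 h6 h3
        rw [h7]
        group
      have h3 := conj_prod E.cent L hconj
      rw [hLlen, hpow_odd E.sq, hLc wh, mul_assoc, mul_inv_cancel, mul_one] at h3
      apply E.ne
      exact (mul_eq_right.1 h3.symm)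
  -- Step 2
  have hcomm : L.Pairwise Commute := by
    rw [hL, List.pairwise_map]
    apply hT.imp_of_mem
    intro a b ha hb hab
    obtain ⟨hc1, hc2⟩ := hab
    have h3 : s a * s b * (s a * s b) = 1 := by
      rw [hsz hc2 (by rw [map_mul, hss, hss]), hf]
    have h4 : π (s a) * π (s b) = π (s b) * π (s a) := by rw [hss, hss, hc1]
    have h5 : π (s a) * π (s a) = 1 := by rw [hss]; exact hinvol (h1 a ha)
    have h6 : s a * s a = s b * s b := by
      rw [hst (h1 a ha) (hss a), hst (h1 b hb) (hss b)]
    exact E.comm_iff h4 h5 h6 h3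
  have he : t' * t' = 1 := by
    have h3 : ∀ y ∈ L, y * y = t' * t' := by
      intro y hy
      obtain ⟨a, ha, rfl⟩ := List.mem_map.1 hy
      exact hst (h1 a ha) (hss a)
    have h4 := sq_prod L h3 hcomm
    rw [hLsq, hLlen, hpow_odd (E.sq_sq ht2)] at h4
    exact h4.symm
  refine ⟨?_, ?_⟩
  · intro y hy
    rw [hsz (IsConj.refl z) hy, hf]
  · intro y hy
    rw [hst (IsConj.refl t) hy, he]

/-- Commuting lifts, from the main lemma. -/
theorem lifts_commute {π : C →* X} {d : C} (E : CExt π d) {t z a b : X} (ht : t * t = 1) (hz : z * z = 1)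
    (hzl : ∀ y, π y = z → y * y = 1) (htl : ∀ y, π y = t → y * y = 1)
    (ha : IsConj t a) (hb : IsConj t b) (hab : a * b = b * a) (habz : IsConj z (a * b)) {ah bh : C}
    (hah : π ah = a) (hbh : π bh = b) : ah * bh = bh * ah := by
  obtain ⟨t', ht'⟩ := E.surj t
  obtain ⟨zh, hzh⟩ := E.surj z
  have ht2 : π t' * π t' = 1 := by rw [ht', ht]
  have hz2 : π zh * π zh = 1 := by rw [hzh, hz]
  have h1 : ah * ah = 1 := by
    rw [← E.sq_conj ht2 (by rw [ht', hah]; exact ha)]
    exact htl _ ht'
  have h2 : bh * bh = 1 := by
    rw [← E.sq_conj ht2 (by rw [ht', hbh]; exact hb)]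
    exact htl _ ht'
  have h3 : ah * bh * (ah * bh) = 1 := by
    rw [← E.sq_conj hz2 (by rw [hzh, map_mul, hah, hbh]; exact habz)]
    exact hzl _ hzh
  apply E.comm_iff (by rw [hah, hbh, hab]) _ (by rw [h1, h2]) h3
  rw [hah]
  obtain ⟨g, rfl⟩ := isConj_iff.1 ha
  calc g * t * g⁻¹ * (g * t * g⁻¹) = g * (t * t) * g⁻¹ := by group
    _ = 1 := by rw [ht]; group

end Cfsg.Agent.Lib.Fischer.LiftInvol
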