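/-
From the lifting of involutions through a central extension of order two to the centralizer of an involution.
-/
import Mathlib
import Cfsg.Agent.Lib.Fischer.LiftInvol

set_option autoImplicit false

namespace Cfsg.Agent.Lib.Fischer.LiftCent

open Cfsg.Agent.Lib.Fischer.LiftInvol

variable {G : Type*} [Group G] {X : Type*} [Group X]

/-- The centralizer and the quotient map, as a central extension. -/
theorem cext_of (d : G) (hd : orderOf d = 2)
    [hzn : ((Subgroup.zpowers d).subgroupOf (Subgroup.centralizer ({d} : Set G))).Normal]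
    (f : ↥(Subgroup.centralizer ({d} : Set G)) ⧸ (Subgroup.zpowers d).subgroupOf (Subgroup.centralizer ({d} : Set G)) ≃* X) :
    CExt (f.toMonoidHom.comp (QuotientGroup.mk' ((Subgroup.zpowers d).subgroupOf (Subgroup.centralizer ({d} : Set G)))))
      (⟨d, Subgroup.mem_centralizer_singleton_iff.2 rfl⟩ : ↥(Subgroup.centralizer ({d} : Set G))) := by
  have hd2 : d * d = 1 := by
    rw [← pow_two, ← hd]
    exact pow_orderOf_eq_one d
  have hd1 : d ≠ 1 := by
    rintro rfl
    rw [orderOf_one] at hd
    omega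
  refine ⟨?_, ?_, ?_, ?_, ?_, ?_⟩
  · exact f.surjective.comp (QuotientGroup.mk'_surjective _)
  · intro h
    exact hd1 (congrArg Subtype.val h)
  · apply Subtype.ext
    exact hd2
  · intro c
    apply Subtype.ext
    exact Subgroup.mem_centralizer_singleton_iff.1 c.2
  · show f (QuotientGroup.mk _) = 1
    have : (QuotientGroup.mk (⟨d, Subgroup.mem_centralizer_singleton_iff.2 rfl⟩ : ↥(Subgroup.centralizer ({d} : Set G))) :
        ↥(Subgroup.centralizer ({d} : Set G)) ⧸ (Subgroup.zpowers d).subgroupOf (Subgroup.centralizer ({d} : Set G))) = 1 :=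
      (QuotientGroup.eq_one_iff _).2 (Subgroup.mem_subgroupOf.2 (Subgroup.mem_zpowers d))
    rw [this, map_one]
  · intro c hc
    have h1 : (QuotientGroup.mk c : ↥(Subgroup.centralizer ({d} : Set G)) ⧸ (Subgroup.zpowers d).subgroupOf (Subgroup.centralizer ({d} : Set G))) = 1 :=
      f.injective (by rw [map_one]; exact hc)
    have h2 : (c : G) ∈ Subgroup.zpowers d := Subgroup.mem_subgroupOf.1 ((QuotientGroup.eq_one_iff _).1 h1)
    obtain ⟨k, hk⟩ := Subgroup.mem_zpowers_iff.1 h2
    rcases Int.emod_two_eq_zero_or_one k with h3 | h3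
    · left
      apply Subtype.ext
      show (c : G) = 1
      rw [← hk]
      obtain ⟨m, rfl⟩ : (2 : ℤ) ∣ k := Int.dvd_of_emod_eq_zero h3
      rw [zpow_mul, zpow_two, hd2, one_zpow]
    · right
      apply Subtype.ext
      show (c : G) = d
      rw [← hk]
      have h4 : k = 2 * (k / 2) + 1 := by omega
      rw [h4, zpow_add, zpow_mul, zpow_two, hd2, one_zpow, one_mul, zpow_one]

/-- The conclusion of the rows, from the lifting property. -/
theorem conclusion (d : G) (hd : orderOf d = 2)
    [hzn : ((Subgroup.zpowers d).subgroupOf (Subgroup.centralizer ({d} : Set G))).Normal]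
    (f : ↥(Subgroup.centralizer ({d} : Set G)) ⧸ (Subgroup.zpowers d).subgroupOf (Subgroup.centralizer ({d} : Set G)) ≃* X)
    (hl : ∀ (π : ↥(Subgroup.centralizer ({d} : Set G)) →* X) (dh : ↥(Subgroup.centralizer ({d} : Set G))), CExt π dh →
      ∀ x : X, x * x = 1 → ∃ y, π y = x ∧ y * y = 1) :
    (∀ x : ↥(Subgroup.centralizer ({d} : Set G)) ⧸ (Subgroup.zpowers d).subgroupOf (Subgroup.centralizer ({d} : Set G)),
      orderOf x = 2 → ∃ y : ↥(Subgroup.centralizer ({d} : Set G)), orderOf y = 2 ∧
        (QuotientGroup.mk y : ↥(Subgroup.centralizer ({d} : Set G)) ⧸ (Subgroup.zpowers d).subgroupOf (Subgroup.centralizer ({d} : Set G))) = x) ∧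
    ¬ ∃ g : G, g ^ 2 = d := by
  have E := cext_of d hd f
  have first : ∀ x : ↥(Subgroup.centralizer ({d} : Set G)) ⧸ (Subgroup.zpowers d).subgroupOf (Subgroup.centralizer ({d} : Set G)),
      orderOf x = 2 → ∃ y : ↥(Subgroup.centralizer ({d} : Set G)), orderOf y = 2 ∧
        (QuotientGroup.mk y : ↥(Subgroup.centralizer ({d} : Set G)) ⧸ (Subgroup.zpowers d).subgroupOf (Subgroup.centralizer ({d} : Set G))) = x := by
    intro x hx
    have hx2 : x * x = 1 := by
      rw [← pow_two, ← hx]
      exact pow_orderOf_eq_one x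
    have hx1 : x ≠ 1 := by
      rintro rfl
      rw [orderOf_one] at hx
      omega
    obtain ⟨y, hy, hyy⟩ := hl _ _ E (f x) (by rw [← map_mul, hx2, map_one])
    have hyx : (QuotientGroup.mk y : ↥(Subgroup.centralizer ({d} : Set G)) ⧸ (Subgroup.zpowers d).subgroupOf (Subgroup.centralizer ({d} : Set G))) = x :=
      f.injective hy
    refine ⟨y, ?_, hyx⟩
    apply orderOf_eq_prime (p := 2)
    · rw [pow_two, hyy]
    · rintro rfl
      apply hx1
      rw [← hyx]
      rfl
  refine ⟨first, ?_⟩
  rintro ⟨g, hg⟩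
  have hd2 : d * d = 1 := by
    rw [← pow_two, ← hd]
    exact pow_orderOf_eq_one d
  have hd1 : d ≠ 1 := by
    rintro rfl
    rw [orderOf_one] at hd
    omega
  have hgc : g ∈ Subgroup.centralizer ({d} : Set G) := by
    apply Subgroup.mem_centralizer_singleton_iff.2
    rw [← hg, pow_two, mul_assoc]
  let gh : ↥(Subgroup.centralizer ({d} : Set G)) := ⟨g, hgc⟩
  have hgg : (gh * gh : ↥(Subgroup.centralizer ({d} : Set G))) =
      ⟨d, Subgroup.mem_centralizer_singleton_iff.2 rfl⟩ := by
    apply Subtype.ext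
    show g * g = d
    rw [← pow_two, hg]
  let x := (QuotientGroup.mk gh : ↥(Subgroup.centralizer ({d} : Set G)) ⧸ (Subgroup.zpowers d).subgroupOf (Subgroup.centralizer ({d} : Set G)))
  have hπg : (f.toMonoidHom.comp (QuotientGroup.mk' ((Subgroup.zpowers d).subgroupOf (Subgroup.centralizer ({d} : Set G))))) gh = f x := rfl
  have hxx : f x * f x = 1 := by
    rw [← hπg, ← map_mul, hgg]
    exact E.map_d
  obtain ⟨y, hy, hyy⟩ := hl _ _ E (f x) hxx
  have h1 := E.sq_eq_of_map_eq (a := y) (b := gh) (by rw [hy, hπg])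
  rw [hyy, hgg] at h1
  apply hd1
  exact (congrArg Subtype.val h1).symm

end Cfsg.Agent.Lib.Fischer.LiftCent
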