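/-
A class of 3-transpositions of a simple group is primitive, and the simplicity of a central quotient with trivial centre.
-/
import Mathlib
import Cfsg.Agent.Lib.Fischer.Struct
import Cfsg.Agent.Lib.Components.Basic

set_option autoImplicit false

namespace Cfsg.Agent.Lib.Fischer.LiftPrim

open Cfsg Cfsg.Agent.Lib.Components
open scoped commutatorElement

/-- A central quotient of a quasisimple group with trivial centre is simple. -/
theorem simple_quot {C : Type*} [Group C] (hq : IsQuasisimple C) (N : Subgroup C) [hN : N.Normal]
    (hle : N ≤ Subgroup.center C) (hZ : Subgroup.center (C ⧸ N) = ⊥) : IsSimpleGroup (C ⧸ N) := by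
  have hEq : Subgroup.center C = N := by
    apply le_antisymm _ hle
    intro z hz
    have h1 : (QuotientGroup.mk z : C ⧸ N) ∈ Subgroup.center (C ⧸ N) := by
      rw [Subgroup.mem_center_iff]
      intro x
      obtain ⟨c, rfl⟩ := QuotientGroup.mk_surjective x
      rw [← QuotientGroup.mk_mul, ← QuotientGroup.mk_mul, (Subgroup.mem_center_iff.1 hz) c]
    rw [hZ, Subgroup.mem_bot] at h1
    exact (QuotientGroup.eq_one_iff z).1 h1
  subst hEq
  exact hq.2

/-- A simple group with trivial centre is quasisimple. -/
theorem quasisimple_of_simple {X : Type*} [Group X] (hs : IsSimpleGroup X) (hZ : Subgroup.center X = ⊥) :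
    IsQuasisimple X := by
  constructor
  · have hn : (commutator X).Normal := inferInstance
    rcases hs.eq_bot_or_eq_top_of_normal _ hn with h | h
    · exfalso
      have h1 : Subgroup.center X = ⊤ := by
        rw [eq_top_iff]
        intro x _
        rw [Subgroup.mem_center_iff]
        intro y
        have h2 : ⁅y, x⁆ ∈ commutator X := Subgroup.commutator_mem_commutator (Subgroup.mem_top _) (Subgroup.mem_top _)
        rw [h, Subgroup.mem_bot, commutatorElement_eq_one_iff_mul_comm] at h2
        exact h2
      rw [hZ] at h1
      exact bot_ne_top h1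
    · exact ⟨h⟩
  · have e : X ⧸ Subgroup.center X ≃* X :=
      (QuotientGroup.quotientMulEquivOfEq hZ).trans QuotientGroup.quotientBot
    exact e.isSimpleGroup

/-- **Primitivity in a simple group.** -/
theorem primitive_of_simple {X : Type*} [Group X] [Finite X] (hs : IsSimpleGroup X) (hZ : Subgroup.center X = ⊥)
    {E : Set X} (hE : IsThreeTranspositionClass E) (h2 : ∃ a ∈ E, ∃ b ∈ E, a ≠ b)
    (hcore : pCore 2 X ≤ Subgroup.center X) : IsPrimitiveUnderConj E := by
  have hq := quasisimple_of_simple hs hZ
  have hq' : IsQuasisimple ↥(⊤ : Subgroup X) := Cfsg.Agent.Lib.Components.Basic.isQuasisimple_of_mulEquiv Subgroup.topEquiv.symm hq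
  refine Cfsg.Agent.Lib.Fischer.Struct.primitive_of_index_le_two hE h2 hcore (L := ⊤) inferInstance hq' ?_ (by simp)
  intro c hc
  rw [Subgroup.mem_center_iff]
  intro y
  have := Subgroup.mem_centralizer_iff.1 hc y (Subgroup.mem_top _)
  exact this

end Cfsg.Agent.Lib.Fischer.LiftPrim
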