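/-
Maximal commuting subsets of a class of 3-transpositions: Sylow normalization, double transitivity.
-/
import Mathlib
import Cfsg.Agent.S5345
import Cfsg.Agent.Lib.Fischer.Prim

set_option autoImplicit false

namespace Cfsg.Agent.Lib.Fischer.MaxComm

open Cfsg Cfsg.Agent.Lib.Fischer.Basic Cfsg.Agent.Lib.Fischer.Local
  Cfsg.Agent.Lib.Fischer.AntiConn Cfsg.Agent.Lib.Fischer.Rank3 Cfsg.Agent.Lib.Fischer.Prim

variable {G : Type*} [Group G]

/-- a commuting subset of maximum size -/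
def IsMaxC (D E : Set G) : Prop :=
  E ⊆ D ∧ (∀ a ∈ E, ∀ b ∈ E, Commute a b) ∧
    ∀ E' : Set G, E' ⊆ D → (∀ a ∈ E', ∀ b ∈ E', Commute a b) → E'.ncard ≤ E.ncard

theorem IsMaxC.conj [Finite G] {D E : Set G} (h : TT D) (hE : IsMaxC D E) (g : G) :
    IsMaxC D (Cj g E) := by
  refine ⟨Cj_subset h hE.1 g, ?_, ?_⟩
  · rintro _ ⟨a, ha, rfl⟩ _ ⟨b, hb, rfl⟩
    exact (commute_conj_iff g a b).2 (hE.2.1 a ha b hb)
  · intro E' hE' hc
    rw [Cj_ncard]
    exact hE.2.2 E' hE' hc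

variable [Finite G]

theorem inter_sylow_eq {D E : Set G} (hD : IsThreeTranspositionGroup D) (hE : IsMaxC D E)
    (T : Sylow 2 G) (hET : E ⊆ (T : Subgroup G)) : {d : G | d ∈ D ∧ d ∈ (T : Subgroup G)} = E := by
  have hsub : E ⊆ {d : G | d ∈ D ∧ d ∈ (T : Subgroup G)} := fun x hx => ⟨hE.1 hx, hET hx⟩
  symm
  apply Set.eq_of_subset_of_ncard_le hsub _ (Set.toFinite _)
  apply hE.2.2 _ (fun x hx => hx.1)
  have I := (Cfsg.Agent.S5345.result hD T).1
  intro a ha b hb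
  have ha' : a ∈ Subgroup.closure {d : G | d ∈ D ∧ d ∈ T} := Subgroup.subset_closure ha
  have hb' : b ∈ Subgroup.closure {d : G | d ∈ D ∧ d ∈ T} := Subgroup.subset_closure hb
  have := I.is_comm.comm ⟨a, ha'⟩ ⟨b, hb'⟩
  exact congrArg Subtype.val this

theorem inter_eq_of_pgroup {D E : Set G} (hD : IsThreeTranspositionGroup D) (hE : IsMaxC D E)
    {P : Subgroup G} (hP : IsPGroup 2 P) (hEP : E ⊆ P) : {d : G | d ∈ D ∧ d ∈ P} = E := by
  obtain ⟨T, hT⟩ := hP.exists_le_sylow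
  have h1 := inter_sylow_eq hD hE T (fun x hx => hT (hEP hx))
  apply Set.Subset.antisymm
  · rw [← h1]
    exact fun x hx => ⟨hx.1, hT hx.2⟩
  · exact fun x hx => ⟨hE.1 hx, hEP hx⟩

omit [Finite G] in
theorem closure_isPGroup {D E : Set G} (h : TT D) (hED : E ⊆ D)
    (hc : ∀ a ∈ E, ∀ b ∈ E, Commute a b) : IsPGroup 2 (Subgroup.closure E) := by
  have hc' : ∀ x ∈ E, ∀ y ∈ E, x * y = y * x := fun x hx y hy => (hc x hx y hy).eq
  have I := Subgroup.isMulCommutative_closure hc'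
  have hsq : ∀ x ∈ Subgroup.closure E, x * x = 1 := by
    intro x hx
    induction hx using Subgroup.closure_induction with
    | mem a ha => exact h.sq a (hED ha)
    | one => simp
    | mul a b ha hb iha ihb =>
      have hab : a * b = b * a := by
        have := I.is_comm.comm ⟨a, ha⟩ ⟨b, hb⟩
        exact congrArg Subtype.val this
      calc a * b * (a * b) = a * (b * a) * b := by group
        _ = a * (a * b) * b := by rw [hab]
        _ = (a * a) * (b * b) := by group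
        _ = 1 := by rw [iha, ihb, one_mul]
    | inv a _ iha =>
      have := inv_eq_of_mul_eq_one_left iha
      rw [this]
      exact iha
  intro x
  refine ⟨1, ?_⟩
  apply Subtype.ext
  simp only [pow_one, Subgroup.coe_pow, OneMemClass.coe_one]
  rw [pow_two]
  exact hsq x x.2

theorem exists_sylow_le {D E : Set G} (hD : IsThreeTranspositionGroup D) (hE : IsMaxC D E) :
    ∃ P : Sylow 2 G, (P : Subgroup G) ≤ Subgroup.normalizer E := by
  have h := TT.of_group hD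
  obtain ⟨T, hT⟩ := (closure_isPGroup h hE.1 hE.2.1).exists_le_sylow
  have hET : E ⊆ (T : Subgroup G) := fun x hx => hT (Subgroup.subset_closure hx)
  have heq := inter_sylow_eq hD hE T hET
  refine ⟨T, ?_⟩
  intro g hg
  rw [Subgroup.mem_normalizer_iff_conj_image_eq]
  apply Set.Subset.antisymm
  · rintro _ ⟨x, hx, rfl⟩
    rw [← heq]
    exact ⟨h.conj g x (hE.1 hx), Subgroup.mul_mem _ (Subgroup.mul_mem _ hg (hET hx))
      (Subgroup.inv_mem _ hg)⟩
  · intro x hx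
    refine ⟨g⁻¹ * x * g, ?_, by simp [MulAut.conj_apply]; group⟩
    rw [← heq]
    have := h.conj g⁻¹ x (hE.1 hx)
    rw [inv_inv] at this
    refine ⟨this, ?_⟩
    exact Subgroup.mul_mem _ (Subgroup.mul_mem _ (Subgroup.inv_mem _ hg) (hET hx)) hg

/-- Burnside's argument in the centralizer of a set `F`. -/
theorem conj_in_centralizer {D E E' : Set G} (hD : IsThreeTranspositionGroup D) (hE : IsMaxC D E)
    (hE' : IsMaxC D E') (F : Set G) (hF : F ⊆ E) (hF' : F ⊆ E') :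
    ∃ h : G, (∀ f ∈ F, Commute h f) ∧ Cj h E = E' := by
  have hh := TT.of_group hD
  let C : Subgroup G := Subgroup.centralizer F
  have hEC : ∀ x ∈ E, x ∈ C := by
    intro x hx
    rw [Subgroup.mem_centralizer_iff]
    intro f hf
    exact hE.2.1 f (hF hf) x hx
  have hEC' : ∀ x ∈ E', x ∈ C := by
    intro x hx
    rw [Subgroup.mem_centralizer_iff]
    intro f hf
    exact hE'.2.1 f (hF' hf) x hx
  have hS : ∀ E₁ : Set G, E₁ ⊆ D → (∀ a ∈ E₁, ∀ b ∈ E₁, Commute a b) →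
      ∃ S : Sylow 2 C, ∀ x (hx : x ∈ C), x ∈ E₁ → (⟨x, hx⟩ : C) ∈ (S : Subgroup C) := by
    intro E₁ hE₁ hc
    have hp : IsPGroup 2 ((Subgroup.closure E₁).subgroupOf C) :=
      (closure_isPGroup hh hE₁ hc).comap_of_injective C.subtype C.subtype_injective
    obtain ⟨S, hSle⟩ := hp.exists_le_sylow
    refine ⟨S, fun x hx hxE => hSle ?_⟩
    rw [Subgroup.mem_subgroupOf]
    exact Subgroup.subset_closure hxE
  obtain ⟨S, hSE⟩ := hS E hE.1 hE.2.1
  obtain ⟨S', hSE'⟩ := hS E' hE'.1 hE'.2.1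
  obtain ⟨h₀, hh₀⟩ := MulAction.exists_smul_eq C S S'
  refine ⟨(h₀ : G), ?_, ?_⟩
  · intro f hf
    have := Subgroup.mem_centralizer_iff.1 h₀.2 f hf
    exact this.symm
  · have hbar : IsPGroup 2 ((S' : Subgroup C).map C.subtype) := S'.isPGroup'.map _
    have hsub : E' ⊆ ((S' : Subgroup C).map C.subtype) := by
      intro x hx
      exact ⟨⟨x, hEC' x hx⟩, hSE' x (hEC' x hx) hx, rfl⟩
    have heq := inter_eq_of_pgroup hD hE' hbar hsub
    have hle : Cj (h₀ : G) E ⊆ E' := by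
      rintro _ ⟨x, hx, rfl⟩
      rw [← heq]
      refine ⟨hh.conj _ x (hE.1 hx), ?_⟩
      have h1 : (⟨x, hEC x hx⟩ : C) ∈ (S : Subgroup C) := hSE x (hEC x hx) hx
      have h2 : h₀ * ⟨x, hEC x hx⟩ * h₀⁻¹ ∈ (S' : Subgroup C) := by
        rw [← hh₀, Sylow.coe_subgroup_smul]
        exact Subgroup.smul_mem_pointwise_smul _ (MulAut.conj h₀) _ h1
      exact ⟨_, h2, rfl⟩
    apply Set.eq_of_subset_of_ncard_le hle _ (Set.toFinite _)
    rw [Cj_ncard]
    exact hE.2.2 E' hE'.1 hE'.2.1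

/-- **Double transitivity on a maximal commuting set.** -/
theorem two_transitive {D E : Set G} (hD : IsThreeTranspositionClass D) (hmod : NoMod D)
    (hE : IsMaxC D E) {a b c d : G} (ha : a ∈ E) (hb : b ∈ E) (hc : c ∈ E) (hd : d ∈ E)
    (hab : a ≠ b) (hcd : c ≠ d) :
    ∃ g ∈ Subgroup.normalizer E, g * a * g⁻¹ = c ∧ g * b * g⁻¹ = d := by
  have h := TT.of_class hD
  have hcl : ∀ x ∈ D, ∀ y ∈ D, ∃ g : G, g * x * g⁻¹ = y :=
    fun x hx y hy => exists_conj hD hx hy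
  have hDg : IsThreeTranspositionGroup D := ⟨hD.1, h.conj, hD.2.2⟩
  obtain ⟨g₁, hg₁⟩ := hcl a (hE.1 ha) c (hE.1 hc)
  have hb' : g₁ * b * g₁⁻¹ ∈ Dlt D c := by
    refine ⟨h.conj g₁ b (hE.1 hb), ?_, ?_⟩
    · rw [← hg₁]
      intro k
      exact hab (conj_inj g₁ k).symm
    · rw [← hg₁]
      exact (commute_conj_iff g₁ a b).2 (hE.2.1 a ha b hb)
  have hd' : d ∈ Dlt D c := ⟨hE.1 hd, fun k => hcd k.symm, hE.2.1 c hc d hd⟩
  obtain ⟨g₂, hg₂, hg₂d⟩ := trans_dlt h hcl hmod (hE.1 hc) hb' hd'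
  have hg₂c : Commute g₂ c := commute_of_mem_Cl (closure_dlt_le D c hg₂)
  have e1 : (g₂ * g₁) * a * (g₂ * g₁)⁻¹ = c := by
    calc (g₂ * g₁) * a * (g₂ * g₁)⁻¹ = g₂ * (g₁ * a * g₁⁻¹) * g₂⁻¹ := by group
      _ = c := by rw [hg₁, hg₂c.eq]; group
  have e2 : (g₂ * g₁) * b * (g₂ * g₁)⁻¹ = d := by
    calc (g₂ * g₁) * b * (g₂ * g₁)⁻¹ = g₂ * (g₁ * b * g₁⁻¹) * g₂⁻¹ := by group
      _ = d := hg₂d
  have hE' := hE.conj h (g₂ * g₁)
  have hF : ({c, d} : Set G) ⊆ E := by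
    rintro x (rfl | rfl)
    · exact hc
    · exact hd
  have hF' : ({c, d} : Set G) ⊆ Cj (g₂ * g₁) E := by
    rintro x (rfl | rfl)
    · exact ⟨a, ha, e1⟩
    · exact ⟨b, hb, e2⟩
  obtain ⟨k, hk, hkE⟩ := conj_in_centralizer hDg hE hE' _ hF hF'
  have hkc : Commute k c := hk c (Or.inl rfl)
  have hkd : Commute k d := hk d (Or.inr rfl)
  refine ⟨k⁻¹ * (g₂ * g₁), ?_, ?_, ?_⟩
  · rw [Subgroup.mem_normalizer_iff_conj_image_eq]
    show Cj (k⁻¹ * (g₂ * g₁)) E = E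
    rw [← Cj_Cj, ← hkE, Cj_Cj, inv_mul_cancel, Cj_one]
  · calc k⁻¹ * (g₂ * g₁) * a * (k⁻¹ * (g₂ * g₁))⁻¹
        = k⁻¹ * ((g₂ * g₁) * a * (g₂ * g₁)⁻¹) * k := by group
      _ = c := by rw [e1, hkc.inv_left.eq]; group
  · calc k⁻¹ * (g₂ * g₁) * b * (k⁻¹ * (g₂ * g₁))⁻¹
        = k⁻¹ * ((g₂ * g₁) * b * (g₂ * g₁)⁻¹) * k := by group
      _ = d := by rw [e2, hkd.inv_left.eq]; group

end Cfsg.Agent.Lib.Fischer.MaxComm
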