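/-
A class of 3-transpositions, a copy of `S₅` whose complementary lines behave like an odd-core class:
every member of the class lies in the copy.
-/
import Mathlib
import Cfsg.Agent.Lib.Fischer.Basic
import Cfsg.Agent.Lib.Fischer.SymChain
import Cfsg.Agent.Lib.Fischer.WClass
import Cfsg.Agent.Lib.Fischer.Prim
import Cfsg.Agent.Lib.Basic.PCore
import Cfsg.Agent.Lib.Nilpotent.Fitting
import Cfsg.Agent.Lib.Solvable.PSeries

set_option autoImplicit false
set_option linter.unusedVariables false
set_option linter.unusedSectionVars false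

namespace Cfsg.Agent.Lib.Fischer.OddS5

open Cfsg Cfsg.Agent.Lib.Fischer.Basic Equiv

set_option synthInstance.maxSize 2000
set_option synthInstance.maxHeartbeats 400000

variable {G : Type*} [Group G]

/-! ### Permutation identities -/

theorem swap_comm5 : ∀ i j k l : Fin 5, i ≠ k → i ≠ l → j ≠ k → j ≠ l →
    swap i j * swap k l = swap k l * swap i j := by decide +kernel

theorem swap_anti5 : ∀ i j k : Fin 5, i ≠ j → i ≠ k → j ≠ k →
    swap i j * swap i k ≠ swap i k * swap i j := by decide +kernel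

theorem swap_tp5 : ∀ i j k : Fin 5, i ≠ j → i ≠ k → j ≠ k →
    swap i j * swap i k * swap i j = swap j k := by decide +kernel

theorem swap_ne5 : ∀ i j k l : Fin 5, i ≠ j → k ≠ l → i ≠ k → i ≠ l → swap i j ≠ swap k l := by decide +kernel

theorem cover5 : ∀ a b c d e : Fin 5, a ≠ b → a ≠ c → a ≠ d → a ≠ e → b ≠ c → b ≠ d → b ≠ e → c ≠ d → c ≠ e → d ≠ e →
    ∀ x : Fin 5, x = a ∨ x = b ∨ x = c ∨ x = d ∨ x = e := by decide +kernel

/-- the 4-cycle -/
def zt (a b c d : Fin 5) : Perm (Fin 5) := swap a b * swap b c * swap c d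

theorem zt1 : ∀ a b c d : Fin 5, a ≠ b → a ≠ c → a ≠ d → b ≠ c → b ≠ d → c ≠ d →
    swap a c * zt a b c d = swap a b * swap c d := by decide +kernel

theorem zt2 : ∀ a b c d : Fin 5, a ≠ b → a ≠ c → a ≠ d → b ≠ c → b ≠ d → c ≠ d →
    swap b d * zt a b c d = swap a d * swap b c := by decide +kernel

theorem zt3 : ∀ a b c d : Fin 5, a ≠ b → a ≠ c → a ≠ d → b ≠ c → b ≠ d → c ≠ d →
    swap a b * zt a b c d = swap b c * swap c d := by decide +kernel

theorem zt4 : ∀ a b c d : Fin 5, a ≠ b → a ≠ c → a ≠ d → b ≠ c → b ≠ d → c ≠ d →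
    (zt a b c d)⁻¹ * swap a c * zt a b c d = swap b d := by decide +kernel

theorem zt5 : ∀ a b c d : Fin 5, a ≠ b → a ≠ c → a ≠ d → b ≠ c → b ≠ d → c ≠ d →
    (zt a b c d)⁻¹ * swap b d * zt a b c d = swap a c := by decide +kernel

theorem zt6 : ∀ a b c d : Fin 5, a ≠ b → a ≠ c → a ≠ d → b ≠ c → b ≠ d → c ≠ d →
    (zt a b c d)⁻¹ * swap a b * zt a b c d = swap a d := by decide +kernel


/-! ### Line rules -/

section lines

variable {D : Set G} (h : TT D)
include h

/-- `p` commutes with `c w c` iff `c` commutes with `p w p`, when `p, c` do not commute. -/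
theorem rule_pcw {p c w : G} (hp : p ∈ D) (hc : c ∈ D) (hpc : ¬ Commute p c) :
    Commute p (c * w * c) ↔ Commute c (p * w * p) := by
  have e1 : Commute p (c * w * c) ↔ Commute (c * p * c) w := by
    have := h.commute_tp_iff hc (c * p * c) w
    rwa [h.tp_tp hc p] at this
  have e2 : Commute (p * c * p) w ↔ Commute c (p * w * p) := by
    have := h.commute_tp_iff hp c (p * w * p)
    rwa [h.tp_tp hp w] at this
  rw [e1, ← e2, h.braid hp hc hpc]

/-- a point commuting with `a` and with `a b a`-third point -/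
theorem anti_third {t a b : G} (ha : a ∈ D) (hb : b ∈ D) (hab : ¬ Commute a b) (hta : Commute t a)
    (htb : ¬ Commute t b) : ¬ Commute t (a * b * a) := by
  exact h.anti_tp ha hta htb

/-- `t` commutes with `b` and `a b a`, then with `a`. -/
theorem comm_of_third {t a b : G} (ha : a ∈ D) (hb : b ∈ D) (hab : ¬ Commute a b) (htb : Commute t b)
    (htc : Commute t (a * b * a)) : Commute t a := by
  have e : b * (a * b * a) * b = a := h.third_right ha hb hab
  rw [← e]
  exact TT.comm_tp' htb htc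

end lines

/-! ### The system -/

/-- A copy of `S₅` in the 3-transposition class `D`, whose lines behave as in an odd core. -/
structure Sys (D : Set G) (φ : Perm (Fin 5) →* G) : Prop where
  tt : TT D
  inj : Function.Injective φ
  mem : ∀ i j : Fin 5, i ≠ j → φ (swap i j) ∈ D
  good : ∀ i j k l m : Fin 5, i ≠ j → i ≠ k → i ≠ l → i ≠ m → j ≠ k → j ≠ l → j ≠ m → k ≠ l → k ≠ m → l ≠ m →
      ∀ w ∈ D, Commute w (φ (swap i j)) → w ≠ φ (swap k l) → w ≠ φ (swap k m) →
        (Commute w (φ (swap k l)) ↔ Commute w (φ (swap k m)))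

namespace Sys

variable {D : Set G} {φ : Perm (Fin 5) →* G} (S : Sys D φ)
include S

theorem comm {i j k l : Fin 5} (h1 : i ≠ k) (h2 : i ≠ l) (h3 : j ≠ k) (h4 : j ≠ l) :
    Commute (φ (swap i j)) (φ (swap k l)) := by
  show _ * _ = _ * _
  rw [← map_mul, ← map_mul, swap_comm5 i j k l h1 h2 h3 h4]

theorem anti {i j k : Fin 5} (h1 : i ≠ j) (h2 : i ≠ k) (h3 : j ≠ k) :
    ¬ Commute (φ (swap i j)) (φ (swap i k)) := by
  intro hc
  have hc' : φ (swap i j) * φ (swap i k) = φ (swap i k) * φ (swap i j) := hc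
  rw [← map_mul, ← map_mul] at hc'
  exact swap_anti5 i j k h1 h2 h3 (S.inj hc')

theorem tp {i j k : Fin 5} (h1 : i ≠ j) (h2 : i ≠ k) (h3 : j ≠ k) :
    φ (swap i j) * φ (swap i k) * φ (swap i j) = φ (swap j k) := by
  rw [← map_mul, ← map_mul, swap_tp5 i j k h1 h2 h3]

omit S in
theorem symm (i j : Fin 5) : φ (swap i j) = φ (swap j i) := by rw [swap_comm]

/-- transitivity of the commuting relation -/
theorem trans {w : G} {i j k : Fin 5} (h1 : i ≠ j) (h2 : i ≠ k) (h3 : j ≠ k)
    (hij : Commute w (φ (swap i j))) (hjk : Commute w (φ (swap j k))) : Commute w (φ (swap i k)) := by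
  have e := S.tp (i := j) (j := i) (k := k) h1.symm h3 h2
  rw [swap_comm j i] at e
  rw [← e]
  exact TT.comm_tp' hij hjk

/-- no point commutes with all six transpositions' complement: the key lemma on four points -/
theorem dbl {w : G} (hw : w ∈ D) {k l m n : Fin 5} (h1 : k ≠ l) (h2 : m ≠ n) (h3 : k ≠ m) (h4 : k ≠ n) (h5 : l ≠ m) (h6 : l ≠ n)
    (hx : ¬ Commute (φ (swap k l)) w) (hy : ¬ Commute (φ (swap m n)) w) :
    Commute w (φ (swap k l * swap m n) * w * (φ (swap k l * swap m n))⁻¹) := by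
  have hxD := S.mem k l h1
  have hyD := S.mem m n h2
  have hxy := S.comm h3 h4 h5 h6
  have hs := S.tt.string_comm hxD hyD hw hxy hx hy
  have e := (S.tt.commute_tp_iff hxD w (φ (swap k l) * (φ (swap m n) * w * φ (swap m n)) * φ (swap k l)))
  rw [S.tt.tp_tp hxD] at e
  have e2 : φ (swap k l * swap m n) * w * (φ (swap k l * swap m n))⁻¹ =
      φ (swap k l) * (φ (swap m n) * w * φ (swap m n)) * φ (swap k l) := by
    rw [map_mul, mul_inv_rev, S.tt.inv_eq hxD, S.tt.inv_eq hyD]
    group
  rw [e2]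
  exact e.1 hs

theorem tw_ne {w : G} (hw : w ∈ D) {x y : G} (hxD : x ∈ D) (hyD : y ∈ D)
    (hx : ¬ Commute x w) (hy : ¬ Commute y w) (he : x * y * w * (x * y)⁻¹ = w) : x = y := by
  have hi1 := S.tt.inv_eq hxD
  have hi2 := S.tt.inv_eq hyD
  have e : x * w * x = y * w * y := by
    have : x * w * x = x * (x * y * w * (x * y)⁻¹) * x := by rw [he]
    rw [this, mul_inv_rev, hi1, hi2]
    have hxx := S.tt.sq x hxD
    calc x * (x * y * w * (y * x)) * x = (x * x) * y * w * y * (x * x) := by group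
      _ = y * w * y := by rw [hxx]; group
  have t1 := S.tt.third_left hxD hw hx
  have t2 := S.tt.third_left hyD hw hy
  rw [← t1, ← t2, e]


theorem no_K4 {w : G} (hw : w ∈ D) {a b c d e : Fin 5} (ab : a ≠ b) (ac : a ≠ c) (ad : a ≠ d) (ae : a ≠ e)
    (bc : b ≠ c) (bd : b ≠ d) (be : b ≠ e) (cd : c ≠ d) (ce : c ≠ e) (de : d ≠ e)
    (h1 : ¬ Commute w (φ (swap a b))) (h2 : ¬ Commute w (φ (swap a c))) (h3 : ¬ Commute w (φ (swap a d)))
    (h4 : ¬ Commute w (φ (swap b c))) (h5 : ¬ Commute w (φ (swap b d))) (h6 : ¬ Commute w (φ (swap c d))) : False := by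
  have tt := S.tt
  set ζ := zt a b c d with hζ
  set Z := φ ζ with hZ
  set C := Z * w * Z⁻¹ with hCdef
  have hC : C ∈ D := tt.conj Z w hw
  set Q := C * w * C with hQdef
  have hQ : Q ∈ D := tt.tp_mem hC hw
  have hP : φ (swap a c) ∈ D := S.mem a c ac
  have hP' : φ (swap b d) ∈ D := S.mem b d bd
  have hX : φ (swap a b) ∈ D := S.mem a b ab
  -- commutation with `C`
  have key : ∀ ρ σ : Perm (Fin 5), ζ⁻¹ * ρ * ζ = σ → ¬ Commute w (φ σ) → ¬ Commute (φ ρ) C := by
    intro ρ σ hσ hn hc
    apply hn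
    have e1 : φ ρ = Z * φ σ * Z⁻¹ := by
      rw [← hσ, hZ, map_mul, map_mul, map_inv]
      group
    rw [e1, hCdef, commute_conj_iff] at hc
    exact hc.symm
  have hPC : ¬ Commute (φ (swap a c)) C := key _ _ (zt4 a b c d ab ac ad bc bd cd) h5
  have hP'C : ¬ Commute (φ (swap b d)) C := key _ _ (zt5 a b c d ab ac ad bc bd cd) h2
  have hXC : ¬ Commute (φ (swap a b)) C := key _ _ (zt6 a b c d ab ac ad bc bd cd) h3
  -- conjugates of `C`
  have cj : ∀ ρ σ : Perm (Fin 5), φ ρ ∈ D → ρ * ζ = σ → φ ρ * C * φ ρ = φ σ * w * (φ σ)⁻¹ := by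
    intro ρ σ hρ hσ
    rw [← hσ, map_mul, mul_inv_rev, tt.inv_eq hρ, hCdef, ← hZ]
    group
  -- the two commutations
  have cq : ∀ ρ σ : Perm (Fin 5), φ ρ ∈ D → ¬ Commute (φ ρ) C → ρ * ζ = σ → Commute w (φ σ * w * (φ σ)⁻¹) →
      Commute (φ ρ) Q := by
    intro ρ σ hρ hn hσ hcw
    refine (rule_pcw tt hρ hC hn).2 ?_
    have e := tt.commute_tp_iff hρ C (φ ρ * w * φ ρ)
    rw [tt.tp_tp hρ] at e
    apply e.1
    rw [cj ρ σ hρ hσ]
    exact hcw.symm
  have hPQ : Commute (φ (swap a c)) Q :=
    cq _ _ hP hPC (zt1 a b c d ab ac ad bc bd cd)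
      (S.dbl hw ab cd ac ad bc bd (fun h => h1 h.symm) (fun h => h6 h.symm))
  have hP'Q : Commute (φ (swap b d)) Q :=
    cq _ _ hP' hP'C (zt2 a b c d ab ac ad bc bd cd)
      (S.dbl hw ad bc ab ac (Ne.symm bd) (Ne.symm cd) (fun h => h3 h.symm) (fun h => h4 h.symm))
  -- not commuting with `X`
  have hXQ : ¬ Commute (φ (swap a b)) Q := by
    intro hc
    have hc1 := (rule_pcw tt hX hC hXC).1 hc
    have e := tt.commute_tp_iff hX C (φ (swap a b) * w * φ (swap a b))
    rw [tt.tp_tp hX] at e
    have hc2 := e.2 hc1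
    rw [cj _ _ hX (zt3 a b c d ab ac ad bc bd cd)] at hc2
    have ht1 : φ (swap b c) ∈ D := S.mem b c bc
    have ht2 : φ (swap c d) ∈ D := S.mem c d cd
    have e3 : φ (swap b c * swap c d) * w * (φ (swap b c * swap c d))⁻¹ =
        φ (swap b c) * (φ (swap c d) * w * φ (swap c d)) * φ (swap b c) := by
      rw [map_mul, mul_inv_rev, tt.inv_eq ht1, tt.inv_eq ht2]
      group
    rw [e3] at hc2
    -- conjugate by `t₁`
    have e4 := tt.commute_tp_iff ht1 (φ (swap c d) * w * φ (swap c d)) (φ (swap b c) * w * φ (swap b c))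
    rw [tt.tp_tp ht1] at e4
    have hc3 := e4.1 hc2
    have hCd : φ (swap c d) * w * φ (swap c d) ∈ D := tt.tp_mem ht2 hw
    have hnw : ¬ Commute (φ (swap c d)) w := fun h => h6 h.symm
    have ht1C : ¬ Commute (φ (swap b c)) (φ (swap c d) * w * φ (swap c d)) := by
      intro hc4
      apply h5
      have e5 := tt.commute_tp_iff ht2 (φ (swap c d) * φ (swap b c) * φ (swap c d)) w
      rw [tt.tp_tp ht2] at e5
      have e6 := e5.1 hc4
      have e7 := S.tp (i := c) (j := d) (k := b) cd (Ne.symm bc) (Ne.symm bd)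
      rw [swap_comm c b] at e7
      rw [e7, swap_comm d b] at e6
      exact e6.symm
    have hc5 := (rule_pcw tt ht1 hCd ht1C).2 hc3
    rw [tt.third_left ht2 hw hnw] at hc5
    have := S.anti (i := c) (j := b) (k := d) (Ne.symm bc) cd bd
    rw [swap_comm c b] at this
    exact this hc5
  have hQne : ∀ ρ σ₁ σ₂ : Perm (Fin 5), φ ρ ∈ D → ¬ Commute (φ ρ) C → ρ * ζ = σ₁ * σ₂ → φ σ₁ ∈ D → φ σ₂ ∈ D →
      ¬ Commute (φ σ₁) w → ¬ Commute (φ σ₂) w → σ₁ ≠ σ₂ → Q ≠ φ ρ := by
    intro ρ σ₁ σ₂ hρ hn hσ hs1 hs2 hn1 hn2 hne hQρ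
    have hw1 : w = C * φ ρ * C := (tt.tp_eq_iff hC).1 hQρ
    rw [tt.braid hC hρ (fun h => hn h.symm), cj ρ (σ₁ * σ₂) hρ hσ, map_mul] at hw1
    exact hne (S.inj (S.tw_ne hw hs1 hs2 hn1 hn2 hw1.symm))
  have hQP : Q ≠ φ (swap a c) := hQne _ _ _ hP hPC (zt1 a b c d ab ac ad bc bd cd) hX (S.mem c d cd)
    (fun h => h1 h.symm) (fun h => h6 h.symm) (swap_ne5 a b c d ab cd ac ad)
  have hQP' : Q ≠ φ (swap b d) := hQne _ _ _ hP' hP'C (zt2 a b c d ab ac ad bc bd cd) (S.mem a d ad) (S.mem b c bc)
    (fun h => h3 h.symm) (fun h => h4 h.symm) (swap_ne5 a d b c ad bc ab ac)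
  -- conclusion
  have q0 : Commute Q (φ (swap a c)) := hPQ.symm
  have q0' : Commute Q (φ (swap b d)) := hP'Q.symm
  have q1 : Commute Q (φ (swap b e)) := by
    have hne : Q ≠ φ (swap b e) := by
      intro hh
      rw [hh] at q0'
      exact S.anti (i := b) (j := e) (k := d) be bd (Ne.symm de) q0'
    exact (S.good a c b d e ac ab ad ae (Ne.symm bc) cd ce bd be de Q hQ q0 hQP' hne).1 q0'
  have q2 : Commute Q (φ (swap d e)) := by
    have hne : Q ≠ φ (swap d e) := by
      intro hh
      rw [hh] at q0'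
      have := S.anti (i := d) (j := e) (k := b) de (Ne.symm bd) (Ne.symm be)
      rw [swap_comm d b] at this
      exact this q0'
    have q0'' : Commute Q (φ (swap d b)) := by rw [swap_comm]; exact q0'
    have hQP'' : Q ≠ φ (swap d b) := by rw [swap_comm]; exact hQP'
    exact (S.good a c d b e ac ad ab ae cd (Ne.symm bc) ce (Ne.symm bd) de be Q hQ q0 hQP'' hne).1 q0''
  have q3 : Commute Q (φ (swap a b)) := by
    have hne : Q ≠ φ (swap a b) := by
      intro hh
      rw [hh] at q0
      exact S.anti (i := a) (j := b) (k := c) ab ac bc q0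
    exact (S.good d e a c b de (Ne.symm ad) (Ne.symm cd) (Ne.symm bd) (Ne.symm ae) (Ne.symm ce) (Ne.symm be) ac ab (Ne.symm bc) Q hQ q2 hQP hne).1 q0
  exact hXQ q3.symm


/-- The triangle lemma, given one related pair. -/
theorem tri_aux {w : G} (hw : w ∈ D) (hT : ∀ i j : Fin 5, i ≠ j → w ≠ φ (swap i j)) {a b c d e : Fin 5}
    (ab : a ≠ b) (ac : a ≠ c) (ad : a ≠ d) (ae : a ≠ e)
    (bc : b ≠ c) (bd : b ≠ d) (be : b ≠ e) (cd : c ≠ d) (ce : c ≠ e) (de : d ≠ e)
    (hab : Commute w (φ (swap a b))) :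
    ∃ k l m : Fin 5, k ≠ l ∧ k ≠ m ∧ l ≠ m ∧ Commute w (φ (swap k l)) ∧ Commute w (φ (swap k m)) ∧
      Commute w (φ (swap l m)) := by
  by_contra hno
  have hba : Commute w (φ (swap b a)) := by rw [swap_comm]; exact hab
  have tr : ∀ x : Fin 5, x ≠ a → x ≠ b → ¬ Commute w (φ (swap a x)) := by
    intro x hxa hxb hc
    exact hno ⟨a, b, x, ab, Ne.symm hxa, Ne.symm hxb, hab, hc, S.trans (Ne.symm ab) (Ne.symm hxb) (Ne.symm hxa) hba hc⟩
  have h1 := tr c (Ne.symm ac) (Ne.symm bc)
  have h2 := tr d (Ne.symm ad) (Ne.symm bd)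
  have h3 := tr e (Ne.symm ae) (Ne.symm be)
  have tri : ∀ {x y z : Fin 5}, x ≠ y → x ≠ z → y ≠ z → Commute w (φ (swap x y)) → Commute w (φ (swap x z)) → False := by
    intro x y z xy xz yz hxy hxz
    have hyx : Commute w (φ (swap y x)) := by rw [swap_comm]; exact hxy
    exact hno ⟨x, y, z, xy, xz, yz, hxy, hxz, S.trans (Ne.symm xy) yz xz hyx hxz⟩
  by_cases hcd : Commute w (φ (swap c d))
  · have := (S.good a b c d e ab ac ad ae bc bd be cd ce de w hw hab (hT _ _ cd) (hT _ _ ce)).1 hcd
    exact tri cd ce de hcd this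
  by_cases hce : Commute w (φ (swap c e))
  · have := (S.good a b c e d ab ac ae ad bc be bd ce cd (Ne.symm de) w hw hab (hT _ _ ce) (hT _ _ cd)).1 hce
    exact hcd this
  by_cases hde : Commute w (φ (swap d e))
  · have := (S.good a b d e c ab ad ae ac bd be bc de (Ne.symm cd) (Ne.symm ce) w hw hab (hT _ _ de) (hT _ _ (Ne.symm cd))).1 hde
    rw [swap_comm d c] at this
    exact hcd this
  exact S.no_K4 hw ac ad ae ab cd ce (Ne.symm bc) de (Ne.symm bd) (Ne.symm be) h1 h2 h3 hcd hce hde

theorem exists_tri {w : G} (hw : w ∈ D) (hT : ∀ i j : Fin 5, i ≠ j → w ≠ φ (swap i j)) :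
    ∃ k l m : Fin 5, k ≠ l ∧ k ≠ m ∧ l ≠ m ∧ Commute w (φ (swap k l)) ∧ Commute w (φ (swap k m)) ∧
      Commute w (φ (swap l m)) := by
  by_cases h01 : Commute w (φ (swap 0 1))
  · exact S.tri_aux (a := 0) (b := 1) (c := 2) (d := 3) (e := 4) hw hT (by decide) (by decide) (by decide) (by decide) (by decide) (by decide) (by decide) (by decide) (by decide) (by decide) h01
  by_cases h02 : Commute w (φ (swap 0 2))
  · exact S.tri_aux (a := 0) (b := 2) (c := 1) (d := 3) (e := 4) hw hT (by decide) (by decide) (by decide) (by decide) (by decide) (by decide) (by decide) (by decide) (by decide) (by decide) h02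
  by_cases h03 : Commute w (φ (swap 0 3))
  · exact S.tri_aux (a := 0) (b := 3) (c := 1) (d := 2) (e := 4) hw hT (by decide) (by decide) (by decide) (by decide) (by decide) (by decide) (by decide) (by decide) (by decide) (by decide) h03
  by_cases h12 : Commute w (φ (swap 1 2))
  · exact S.tri_aux (a := 1) (b := 2) (c := 0) (d := 3) (e := 4) hw hT (by decide) (by decide) (by decide) (by decide) (by decide) (by decide) (by decide) (by decide) (by decide) (by decide) h12
  by_cases h13 : Commute w (φ (swap 1 3))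
  · exact S.tri_aux (a := 1) (b := 3) (c := 0) (d := 2) (e := 4) hw hT (by decide) (by decide) (by decide) (by decide) (by decide) (by decide) (by decide) (by decide) (by decide) (by decide) h13
  by_cases h23 : Commute w (φ (swap 2 3))
  · exact S.tri_aux (a := 2) (b := 3) (c := 0) (d := 1) (e := 4) hw hT (by decide) (by decide) (by decide) (by decide) (by decide) (by decide) (by decide) (by decide) (by decide) (by decide) h23
  exact (S.no_K4 (a := 0) (b := 1) (c := 2) (d := 3) (e := 4) hw (by decide) (by decide) (by decide) (by decide) (by decide) (by decide) (by decide) (by decide) (by decide) (by decide) h01 h02 h03 h12 h13 h23).elim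

omit S in
theorem compl5 : ∀ g h : Fin 5, g ≠ h → ∃ k l m : Fin 5, k ≠ l ∧ k ≠ m ∧ l ≠ m ∧ k ≠ g ∧ k ≠ h ∧ l ≠ g ∧ l ≠ h ∧ m ≠ g ∧ m ≠ h := by
  decide +kernel

theorem exists_tri' {w : G} (hw : w ∈ D) :
    ∃ k l m : Fin 5, k ≠ l ∧ k ≠ m ∧ l ≠ m ∧ Commute w (φ (swap k l)) ∧ Commute w (φ (swap k m)) ∧
      Commute w (φ (swap l m)) := by
  by_cases hT : ∀ i j : Fin 5, i ≠ j → w ≠ φ (swap i j)
  · exact S.exists_tri hw hT
  push Not at hT
  obtain ⟨g, h, hgh, rfl⟩ := hT
  obtain ⟨k, l, m, kl, km, lm, kg, kh, lg, lh, mg, mh⟩ := compl5 g h hgh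
  exact ⟨k, l, m, kl, km, lm, S.comm (Ne.symm kg) (Ne.symm lg) (Ne.symm kh) (Ne.symm lh),
    S.comm (Ne.symm kg) (Ne.symm mg) (Ne.symm kh) (Ne.symm mh),
    S.comm (Ne.symm lg) (Ne.symm mg) (Ne.symm lh) (Ne.symm mh)⟩

/-- Sub-case of the twin claim: `q` has a triangle through `a, b, i`. -/
theorem caseB {a b i l' m' : Fin 5} (ab : a ≠ b) (ai : a ≠ i) (al : a ≠ l') (am : a ≠ m')
    (bi : b ≠ i) (bl : b ≠ l') (bm : b ≠ m') (il : i ≠ l') (im : i ≠ m') (lm : l' ≠ m')
    {s q : G} (hs : s ∈ D) (hq : q ∈ D)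
    (s1 : Commute s (φ (swap i l'))) (s2 : Commute s (φ (swap i m'))) (s3 : Commute s (φ (swap l' m')))
    (s4 : ¬ Commute s (φ (swap a b))) (s5 : ¬ Commute s (φ (swap a i))) (s6 : ¬ Commute s (φ (swap b i)))
    (q1 : Commute q (φ (swap a b))) (q2 : Commute q (φ (swap a i))) (q3 : Commute q (φ (swap b i)))
    (q4 : ¬ Commute q (φ (swap i l'))) (q5 : ¬ Commute q (φ (swap i m'))) (q6 : ¬ Commute q (φ (swap l' m')))
    (hqs : ¬ Commute q s) : False := by
  have tt := S.tt
  have hf : q * s * q ∈ D := tt.tp_mem hq hs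
  have N1 : ∀ t : G, Commute s t → ¬ Commute q t → ¬ Commute (q * s * q) t := by
    intro t h1 h2 h3
    exact h2 (comm_of_third tt hq hs hqs h1.symm h3.symm).symm
  have N2 : ∀ t : G, Commute q t → ¬ Commute s t → ¬ Commute (q * s * q) t := by
    intro t h1 h2 h3
    exact h2 ((tt.comm_tp_iff hq h1.symm).1 h3.symm).symm
  have cov := cover5 a b i l' m' ab ai al am bi bl bm il im lm
  have NA : ∀ x y : Fin 5, (x = a ∨ x = b ∨ x = i) → (y = a ∨ y = b ∨ y = i) → x ≠ y → ¬ Commute (q * s * q) (φ (swap x y)) := by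
    intro x y hx hy hxy
    rcases hx with rfl | rfl | rfl <;> rcases hy with rfl | rfl | rfl
    · exact absurd rfl hxy
    · exact N2 _ q1 s4
    · exact N2 _ q2 s5
    · rw [swap_comm]; exact N2 _ q1 s4
    · exact absurd rfl hxy
    · exact N2 _ q3 s6
    · rw [swap_comm]; exact N2 _ q2 s5
    · rw [swap_comm]; exact N2 _ q3 s6
    · exact absurd rfl hxy
  have NB : ∀ x y : Fin 5, (x = i ∨ x = l' ∨ x = m') → (y = i ∨ y = l' ∨ y = m') → x ≠ y → ¬ Commute (q * s * q) (φ (swap x y)) := by
    intro x y hx hy hxy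
    rcases hx with rfl | rfl | rfl <;> rcases hy with rfl | rfl | rfl
    · exact absurd rfl hxy
    · exact N1 _ s1 q4
    · exact N1 _ s2 q5
    · rw [swap_comm]; exact N1 _ s1 q4
    · exact absurd rfl hxy
    · exact N1 _ s3 q6
    · rw [swap_comm]; exact N1 _ s2 q5
    · rw [swap_comm]; exact N1 _ s3 q6
    · exact absurd rfl hxy
  obtain ⟨k, l, m, kl, km, lm', hkl, hkm, hlm⟩ := S.exists_tri' hf
  have side : ∀ x : Fin 5, (x = a ∨ x = b ∨ x = i) ∨ (x = i ∨ x = l' ∨ x = m') := by
    intro x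
    rcases cov x with h | h | h | h | h
    · exact Or.inl (Or.inl h)
    · exact Or.inl (Or.inr (Or.inl h))
    · exact Or.inl (Or.inr (Or.inr h))
    · exact Or.inr (Or.inr (Or.inl h))
    · exact Or.inr (Or.inr (Or.inr h))
  rcases side k with hk | hk <;> rcases side l with hl | hl <;> rcases side m with hm | hm
  · exact NA k l hk hl kl hkl
  · exact NA k l hk hl kl hkl
  · exact NA k m hk hm km hkm
  · exact NB l m hl hm lm' hlm
  · exact NA l m hl hm lm' hlm
  · exact NB k m hk hm km hkm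
  · exact NB k l hk hl kl hkl
  · exact NB k l hk hl kl hkl


theorem caseA {a b c d e : Fin 5} (ab : a ≠ b) (ac : a ≠ c) (ad : a ≠ d) (ae : a ≠ e)
    (bc : b ≠ c) (bd : b ≠ d) (be : b ≠ e) (cd : c ≠ d) (ce : c ≠ e) (de : d ≠ e)
    {s q : G} (hs : s ∈ D) (hq : q ∈ D) (hsT : s ≠ φ (swap d e))
    (sde : Commute s (φ (swap d e))) (scd : Commute s (φ (swap c d)))
    (sab : ¬ Commute s (φ (swap a b))) (sbc : ¬ Commute s (φ (swap b c))) (sac : ¬ Commute s (φ (swap a c)))
    (qab : Commute q (φ (swap a b))) (qbc : Commute q (φ (swap b c))) (qcd : Commute q (φ (swap c d)))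
    (qde : Commute q (φ (swap d e))) (hqs : ¬ Commute q s) : False := by
  have tt := S.tt
  have hx : φ (swap a b) ∈ D := S.mem a b ab
  have hu : φ (swap b c) ∈ D := S.mem b c bc
  have ht : φ (swap d e) ∈ D := S.mem d e de
  have ht' : φ (swap c d) ∈ D := S.mem c d cd
  set x := φ (swap a b) with hxdef
  set u := φ (swap b c) with hudef
  set t := φ (swap d e) with htdef
  set t' := φ (swap c d) with ht'def
  have us : ¬ Commute u s := fun h => sbc h.symm
  have hs2 : u * s * u ∈ D := tt.tp_mem hu hs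
  have hxs2 : ¬ Commute x (u * s * u) := by
    intro hc
    have e1 := tt.commute_tp_iff hu (u * x * u) s
    rw [tt.tp_tp hu] at e1
    have e2 := e1.1 hc
    have e3 := S.tp (i := b) (j := c) (k := a) bc (Ne.symm ab) (Ne.symm ac)
    rw [swap_comm b a, swap_comm c a] at e3
    rw [e3] at e2
    exact sac e2.symm
  have hs1 : x * (u * s * u) * x ∈ D := tt.tp_mem hx hs2
  have hf : q * s * q ∈ D := tt.tp_mem hq hs
  have hw0 : (x * (u * s * u) * x) * (q * s * q) * (x * (u * s * u) * x) ∈ D := tt.tp_mem hs1 hf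
  have e1 : (x * (u * s * u) * x) * x * (x * (u * s * u) * x) = u * s * u := tt.third_mid hx hs2 hxs2
  have hfs2 : Commute (q * s * q) (u * s * u) := tt.string_comm hq hu hs qbc hqs us
  have hxw : Commute x ((x * (u * s * u) * x) * (q * s * q) * (x * (u * s * u) * x)) := by
    have e2 := tt.commute_tp_iff hs1 x ((x * (u * s * u) * x) * (q * s * q) * (x * (u * s * u) * x))
    rw [tt.tp_tp hs1, e1] at e2
    exact e2.1 hfs2.symm
  have tq : Commute t q := qde.symm
  have ts : Commute t s := sde.symm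
  have tu : Commute t u := S.comm (Ne.symm bd) (Ne.symm cd) (Ne.symm be) (Ne.symm ce)
  have tx : Commute t x := S.comm (Ne.symm ad) (Ne.symm bd) (Ne.symm ae) (Ne.symm be)
  have htf : Commute t (q * s * q) := TT.comm_tp' tq ts
  have hts2 : Commute t (u * s * u) := TT.comm_tp' tu ts
  have hts1 : Commute t (x * (u * s * u) * x) := TT.comm_tp' tx hts2
  have htw : Commute t ((x * (u * s * u) * x) * (q * s * q) * (x * (u * s * u) * x)) := TT.comm_tp' hts1 htf
  have t'q : Commute t' q := qcd.symm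
  have t's : Commute t' s := scd.symm
  have t'x : Commute t' x := S.comm (Ne.symm ac) (Ne.symm bc) (Ne.symm ad) (Ne.symm bd)
  have t'u : ¬ Commute t' u := by
    intro hc
    have := S.anti (i := c) (j := d) (k := b) cd (Ne.symm bc) (Ne.symm bd)
    rw [swap_comm c b] at this
    exact this hc
  have ht'f : Commute t' (q * s * q) := TT.comm_tp' t'q t's
  have ht's2 : ¬ Commute t' (u * s * u) := fun hc => t'u (comm_of_third tt hu hs us t's hc)
  have ht's1 : ¬ Commute t' (x * (u * s * u) * x) := tt.anti_tp hx t'x ht's2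
  have hs1f : ¬ Commute (x * (u * s * u) * x) (q * s * q) := by
    intro hc
    have e2 := tt.eq_of_conj_comm hc hs1
    rw [e2] at hxw
    exact sab (((tt.comm_tp_iff hq qab.symm).1 hxw).symm)
  have ht'w : ¬ Commute t' ((x * (u * s * u) * x) * (q * s * q) * (x * (u * s * u) * x)) := by
    rw [tt.braid hs1 hf hs1f]
    exact fun hc => ht's1 ((tt.comm_tp_iff hf ht'f).1 hc)
  have hne1 : (x * (u * s * u) * x) * (q * s * q) * (x * (u * s * u) * x) ≠ t := by
    intro he
    have e2 := (tt.tp_eq_iff hs1).1 he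
    rw [tt.eq_of_conj_comm hts1.symm hs1] at e2
    have e3 := (tt.tp_eq_iff hq).1 e2
    rw [tt.eq_of_conj_comm tq.symm hq] at e3
    exact hsT e3
  have hne2 : (x * (u * s * u) * x) * (q * s * q) * (x * (u * s * u) * x) ≠ φ (swap d c) := by
    intro he
    rw [swap_comm, ← ht'def] at he
    apply ht'w
    rw [he]
  have g := S.good a b d e c ab ad ae ac bd be bc de (Ne.symm cd) (Ne.symm ce) _ hw0 hxw.symm hne1 hne2
  have g1 := g.1 htw.symm
  rw [swap_comm, ← ht'def] at g1
  exact ht'w g1.symm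

theorem claim {a b c d e : Fin 5} (ab : a ≠ b) (ac : a ≠ c) (ad : a ≠ d) (ae : a ≠ e)
    (bc : b ≠ c) (bd : b ≠ d) (be : b ≠ e) (cd : c ≠ d) (ce : c ≠ e) (de : d ≠ e)
    {s q : G} (hs : s ∈ D) (hq : q ∈ D) (hsT : ∀ i j : Fin 5, i ≠ j → s ≠ φ (swap i j))
    (scd : Commute s (φ (swap c d))) (sce : Commute s (φ (swap c e))) (sde : Commute s (φ (swap d e)))
    (sab : ¬ Commute s (φ (swap a b))) (hqne : q ≠ φ (swap a b)) (qab : Commute q (φ (swap a b))) :
    Commute q s := by
  have sA : ∀ {k l m : Fin 5}, a ≠ k → a ≠ l → a ≠ m → b ≠ k → b ≠ l → b ≠ m → k ≠ l → k ≠ m → l ≠ m →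
      Commute s (φ (swap l m)) → ¬ Commute s (φ (swap a k)) ∧ ¬ Commute s (φ (swap b k)) := by
    intro k l m ak al am bk bl bm kl km lm hlm
    have g1 := S.good l m a b k lm (Ne.symm al) (Ne.symm bl) (Ne.symm kl) (Ne.symm am) (Ne.symm bm) (Ne.symm km) ab ak bk
      s hs hlm (hsT _ _ ab) (hsT _ _ ak)
    have g2 := S.good l m b a k lm (Ne.symm bl) (Ne.symm al) (Ne.symm kl) (Ne.symm bm) (Ne.symm am) (Ne.symm km) (Ne.symm ab) bk ak
      s hs hlm (hsT _ _ (Ne.symm ab)) (hsT _ _ bk)
    rw [swap_comm b a] at g2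
    exact ⟨fun h => sab (g1.2 h), fun h => sab (g2.2 h)⟩
  obtain ⟨sac, sbc⟩ := sA ac ad ae bc bd be cd ce de sde
  obtain ⟨sad, sbd⟩ := sA ad ac ae bd bc be (Ne.symm cd) de ce sce
  obtain ⟨sae, sbe⟩ := sA ae ac ad be bc bd (Ne.symm ce) (Ne.symm de) cd scd
  by_contra hqs
  have cov := cover5 a b c d e ab ac ad ae bc bd be cd ce de
  by_cases hqT : ∃ i j : Fin 5, i ≠ j ∧ q = φ (swap i j)
  · obtain ⟨i, j, ij, rfl⟩ := hqT
    have hia : i ≠ a := by
      intro hh
      subst hh
      by_cases hjb : j = b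
      · subst hjb; exact hqne rfl
      · exact S.anti ij ab hjb qab
    have hib : i ≠ b := by
      intro hh
      subst hh
      by_cases hja : j = a
      · subst hja; apply hqne; rw [swap_comm]
      · rw [swap_comm a i] at qab
        exact S.anti ij (Ne.symm ab) hja qab
    have hja : j ≠ a := by
      intro hh
      subst hh
      have qab' : Commute (φ (swap j i)) (φ (swap j b)) := by rw [swap_comm j i]; exact qab
      exact S.anti (Ne.symm ij) ab hib qab'
    have hjb : j ≠ b := by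
      intro hh
      subst hh
      have q' : Commute (φ (swap j i)) (φ (swap j a)) := by rw [swap_comm j i, swap_comm j a]; exact qab
      exact S.anti (Ne.symm ij) (Ne.symm ab) hia q'
    apply hqs
    have sc : ∀ {k l : Fin 5}, Commute s (φ (swap k l)) → Commute (φ (swap l k)) s := by
      intro k l h
      rw [swap_comm]; exact h.symm
    rcases cov i with h | h | h | h | h
    · exact absurd h hia
    · exact absurd h hib
    · subst h
      rcases cov j with h' | h' | h' | h' | h'
      · exact absurd h' hja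
      · exact absurd h' hjb
      · exact absurd h'.symm ij
      · subst h'; exact scd.symm
      · subst h'; exact sce.symm
    · subst h
      rcases cov j with h' | h' | h' | h' | h'
      · exact absurd h' hja
      · exact absurd h' hjb
      · subst h'; exact sc scd
      · exact absurd h'.symm ij
      · subst h'; exact sde.symm
    · subst h
      rcases cov j with h' | h' | h' | h' | h'
      · exact absurd h' hja
      · exact absurd h' hjb
      · subst h'; exact sc sce
      · subst h'; exact sc sde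
      · exact absurd h'.symm ij
  · push Not at hqT
    have hqT' : ∀ i j : Fin 5, i ≠ j → q ≠ φ (swap i j) := hqT
    have g1 := S.good a b c d e ab ac ad ae bc bd be cd ce de q hq qab (hqT' _ _ cd) (hqT' _ _ ce)
    have g2 := S.good a b d c e ab ad ac ae bd bc be (Ne.symm cd) de ce q hq qab (hqT' _ _ (Ne.symm cd)) (hqT' _ _ de)
    rw [swap_comm d c] at g2
    by_cases hcd : Commute q (φ (swap c d))
    · have qce := g1.1 hcd
      have qde := g2.1 hcd
      have qba : Commute q (φ (swap b a)) := by rw [swap_comm]; exact qab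
      have qbe := (S.good c d b a e cd (Ne.symm bc) (Ne.symm ac) ce (Ne.symm bd) (Ne.symm ad) de (Ne.symm ab) be ae q hq hcd
        (hqT' _ _ (Ne.symm ab)) (hqT' _ _ be)).1 qba
      have qec : Commute q (φ (swap e c)) := by rw [swap_comm]; exact qce
      have qbc := S.trans be bc (Ne.symm ce) qbe qec
      exact caseA S ab ac ad ae bc bd be cd ce de hs hq (hsT _ _ de) sde scd sab sbc sac qab qbc hcd qde hqs
    · have nce : ¬ Commute q (φ (swap c e)) := fun h => hcd (g1.2 h)
      have nde : ¬ Commute q (φ (swap d e)) := fun h => hcd (g2.2 h)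
      have qba : Commute q (φ (swap b a)) := by rw [swap_comm]; exact qab
      have hex : ∃ i : Fin 5, i ≠ a ∧ i ≠ b ∧ Commute q (φ (swap a i)) ∧ Commute q (φ (swap b i)) := by
        by_contra hno
        push Not at hno
        have hA : ∀ i : Fin 5, i ≠ a → i ≠ b → ¬ Commute q (φ (swap a i)) := by
          intro i h1 h2 hc
          exact hno i h1 h2 hc (S.trans (Ne.symm ab) (Ne.symm h2) (Ne.symm h1) qba hc)
        have hB : ∀ i : Fin 5, i ≠ a → i ≠ b → ¬ Commute q (φ (swap b i)) := by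
          intro i h1 h2 hc
          exact hA i h1 h2 (S.trans ab (Ne.symm h1) (Ne.symm h2) qab hc)
        have hh : ∀ {x y z : Fin 5}, x ≠ y → x ≠ z → y ≠ z → Commute q (φ (swap x y)) → Commute q (φ (swap x z)) →
            x ≠ a ∧ x ≠ b := by
          intro x y z xy xz yz h1 h2
          constructor
          · intro hxa
            subst hxa
            have hyb : y = b := by
              by_contra hy
              exact hA y (Ne.symm xy) hy h1
            have hzb : z = b := by
              by_contra hz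
              exact hA z (Ne.symm xz) hz h2
            exact yz (hyb.trans hzb.symm)
          · intro hxb
            subst hxb
            have hya : y = a := by
              by_contra hy
              exact hB y hy (Ne.symm xy) h1
            have hza : z = a := by
              by_contra hz
              exact hB z hz (Ne.symm xz) h2
            exact yz (hya.trans hza.symm)
        obtain ⟨k, l, m, kl, km, lm, hkl, hkm, hlm⟩ := S.exists_tri hq hqT'
        have hlk : Commute q (φ (swap l k)) := by rw [swap_comm]; exact hkl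
        obtain ⟨ka, kb⟩ := hh kl km lm hkl hkm
        obtain ⟨la, lb⟩ := hh (Ne.symm kl) lm km hlk hlm
        rcases cov k with h | h | h | h | h
        · exact ka h
        · exact kb h
        · subst h
          rcases cov l with h' | h' | h' | h' | h'
          · exact la h'
          · exact lb h'
          · exact kl h'.symm
          · subst h'; exact hcd hkl
          · subst h'; exact nce hkl
        · subst h
          rcases cov l with h' | h' | h' | h' | h'
          · exact la h'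
          · exact lb h'
          · subst h'; exact hcd hlk
          · exact kl h'.symm
          · subst h'; exact nde hkl
        · subst h
          rcases cov l with h' | h' | h' | h' | h'
          · exact la h'
          · exact lb h'
          · subst h'; exact nce hlk
          · subst h'; exact nde hlk
          · exact kl h'.symm
      obtain ⟨i, ia, ib, qai, qbi⟩ := hex
      rcases cov i with h | h | h | h | h
      · exact ia h
      · exact ib h
      · subst h
        exact S.caseB ab ac ad ae bc bd be cd ce de hs hq scd sce sde sab sac sbc qab qai qbi hcd nce nde hqs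
      · subst h
        have a1 : Commute s (φ (swap i c)) := by rw [swap_comm]; exact scd
        have a2 : ¬ Commute q (φ (swap i c)) := by rw [swap_comm]; exact hcd
        exact S.caseB ab ad ac ae bd bc be (Ne.symm cd) de ce hs hq a1 sde sce sab sad sbd qab qai qbi a2 nde nce hqs
      · subst h
        have a1 : Commute s (φ (swap i c)) := by rw [swap_comm]; exact sce
        have a2 : Commute s (φ (swap i d)) := by rw [swap_comm]; exact sde
        have a3 : ¬ Commute q (φ (swap i c)) := by rw [swap_comm]; exact nce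
        have a4 : ¬ Commute q (φ (swap i d)) := by rw [swap_comm]; exact nde
        exact S.caseB ab ae ac ad be bc bd (Ne.symm ce) (Ne.symm de) cd hs hq a1 a2 scd sab sae sbe qab qai qbi a3 a4 hcd hqs


theorem no311 [Finite G] (h3 : pCore 3 G = ⊥) {a b c d e : Fin 5} (ab : a ≠ b) (ac : a ≠ c) (ad : a ≠ d) (ae : a ≠ e)
    (bc : b ≠ c) (bd : b ≠ d) (be : b ≠ e) (cd : c ≠ d) (ce : c ≠ e) (de : d ≠ e)
    {s : G} (hs : s ∈ D) (hsT : ∀ i j : Fin 5, i ≠ j → s ≠ φ (swap i j))
    (scd : Commute s (φ (swap c d))) (sce : Commute s (φ (swap c e))) (sde : Commute s (φ (swap d e)))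
    (sab : ¬ Commute s (φ (swap a b))) : False := by
  have tt := S.tt
  have hx : φ (swap a b) ∈ D := S.mem a b ab
  set x := φ (swap a b) with hxdef
  have hxs : ¬ Commute x s := fun h => sab h.symm
  have hx' : x * s * x ∈ D := tt.tp_mem hx hs
  have hxx' : ¬ Commute x (x * s * x) := tt.anti_self_tp hx hxs
  have e0 : s * (x * s * x) * s = x := by
    rw [tt.braid hx hs hxs]
    exact tt.tp_tp hs x
  have cl : ∀ {q : G}, q ∈ D → q ≠ x → Commute x q → Commute q s := by
    intro q hq hne hc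
    exact S.claim ab ac ad ae bc bd be cd ce de hs hq hsT scd sce sde sab hne hc.symm
  have ht : Cfsg.Agent.Lib.Fischer.WClass.Tw D x (x * s * x) := by
    ext u
    constructor
    · rintro ⟨hu, hne, hc⟩
      have hus := cl hu hne hc
      refine ⟨hu, ?_, ?_⟩
      · rintro rfl
        exact hxx' hc
      · exact (TT.comm_tp' hc.symm hus).symm
    · rintro ⟨hu, hne, hc⟩
      have hu' : s * u * s ∈ D := tt.tp_mem hs hu
      have e1 := tt.commute_tp_iff hs (x * s * x) u
      rw [e0] at e1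
      have hc1 := e1.2 hc
      have hne' : s * u * s ≠ x := by
        intro he
        apply hne
        have := (tt.tp_eq_iff hs).1 he
        rw [this, tt.braid hx hs hxs]
      have hus := cl hu' hne' hc1
      have hus' : Commute s u := (tt.comm_tp_iff hs (Commute.refl s)).1 hus.symm
      have hux : Commute u x := by
        rw [← e0]
        exact TT.comm_tp' hus'.symm hc.symm
      refine ⟨hu, ?_, hux.symm⟩
      rintro rfl
      exact hxx' hc.symm
  have hm := Cfsg.Agent.Lib.Fischer.WClass.mul_mem_pCore_of_tw tt hx hx' ht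
  rw [h3, Subgroup.mem_bot] at hm
  have e2 : x * s * x = x := by
    have := eq_inv_of_mul_eq_one_right hm
    rw [this, tt.inv_eq hx]
  have e3 := (tt.tp_eq_iff hx).1 e2
  rw [tt.sq x hx, one_mul] at e3
  exact hsT a b ab e3

omit S in
theorem compl5' : ∀ k l m : Fin 5, k ≠ l → k ≠ m → l ≠ m → ∃ a b : Fin 5, a ≠ b ∧ a ≠ k ∧ a ≠ l ∧ a ≠ m ∧ b ≠ k ∧ b ≠ l ∧ b ≠ m := by
  decide +kernel

theorem surj [Finite G] (hD : IsThreeTranspositionClass D) (h3 : pCore 3 G = ⊥) : Function.Surjective φ := by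
  have tt := S.tt
  let P : Set G := {p | ∃ i j : Fin 5, i ≠ j ∧ p = φ (swap i j)}
  have hinv : ∀ w ∈ D, ∀ p ∈ P, w * p * w ∈ P := by
    rintro w hw _ ⟨i, j, ij, rfl⟩
    by_cases hT : ∃ g h : Fin 5, g ≠ h ∧ w = φ (swap g h)
    · obtain ⟨g, h, gh, rfl⟩ := hT
      refine ⟨swap g h i, swap g h j, fun hh => ij ((swap g h).injective hh), ?_⟩
      rw [Equiv.swap_apply_apply, Equiv.swap_inv, map_mul, map_mul]
    · push Not at hT
      have hT' : ∀ i j : Fin 5, i ≠ j → w ≠ φ (swap i j) := hT
      by_cases hall : ∀ g h : Fin 5, g ≠ h → Commute w (φ (swap g h))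
      · rw [tt.eq_of_conj_comm (hall i j ij) hw]
        exact ⟨i, j, ij, rfl⟩
      · exfalso
        push Not at hall
        obtain ⟨g, h, gh, hn⟩ := hall
        obtain ⟨k, l, m, kl, km, lm, hkl, hkm, hlm⟩ := S.exists_tri hw hT'
        obtain ⟨a, b, ab, ak, al, am, bk, bl, bm⟩ := compl5' k l m kl km lm
        refine S.no311 h3 ab ak al am bk bl bm kl km lm hw hT' hkl hkm hlm ?_
        intro hab
        have ham := (S.good k l a b m kl (Ne.symm ak) (Ne.symm bk) km (Ne.symm al) (Ne.symm bl) lm ab am bm w hw hkl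
          (hT' _ _ ab) (hT' _ _ am)).1 hab
        have r : ∀ {x y : Fin 5}, Commute w (φ (swap x y)) → Commute w (φ (swap y x)) := by
          intro x y hc
          rw [swap_comm]; exact hc
        have cov := cover5 a b k l m ab ak al am bk bl bm kl km lm
        have hm : ∀ y : Fin 5, y ≠ m → Commute w (φ (swap m y)) := by
          intro y hy
          rcases cov y with h' | h' | h' | h' | h'
          · subst h'; exact r ham
          · subst h'; exact S.trans am.symm bm.symm ab (r ham) hab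
          · subst h'; exact r hkm
          · subst h'; exact r hlm
          · exact absurd h' hy
        apply hn
        by_cases hg : g = m
        · subst hg; exact hm h (Ne.symm gh)
        by_cases hh : h = m
        · subst hh; exact r (hm g hg)
        exact S.trans hg gh (Ne.symm hh) (r (hm g hg)) (hm h hh)
  have hgen := hD.2.2
  have hPinv := fun g => Cfsg.Agent.Lib.Fischer.Prim.invariant_of_gen tt hgen hinv g
  have hsub : D ⊆ (φ.range : Set G) := by
    intro d hd
    have h0 : φ (swap 0 1) ∈ D := S.mem 0 1 (by decide)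
    obtain ⟨g, hg⟩ := exists_conj hD h0 hd
    have := hPinv g _ ⟨0, 1, by decide, rfl⟩
    rw [hg] at this
    obtain ⟨i, j, _, rfl⟩ := this
    exact ⟨_, rfl⟩
  have htop : φ.range = ⊤ := by
    rw [eq_top_iff, ← hgen]
    exact (Subgroup.closure_le _).2 hsub
  exact MonoidHom.range_eq_top.1 htop

theorem iso [Finite G] (hD : IsThreeTranspositionClass D) (h3 : pCore 3 G = ⊥) : Nonempty (G ≃* Perm (Fin 5)) :=
  ⟨(MulEquiv.ofBijective φ ⟨S.inj, S.surj hD h3⟩).symm⟩

end Sys


/-! ### Construction of the system -/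

/-- the chain -/
def ch (x v z y : G) : ℕ → G
  | 0 => x
  | 1 => v
  | 2 => z
  | _ => y

section constr

variable {D : Set G} (tt : TT D)
include tt

theorem cube_of_braid {a b : G} (ha : a ∈ D) (hb : b ∈ D) (hab : ¬ Commute a b) : (a * b) ^ 3 = 1 := by
  have hbr := tt.braid ha hb hab
  have h1 : (a * b) ^ 3 = (a * b * a) * (b * a * b) := by
    simp only [pow_succ, pow_zero, one_mul, mul_assoc]
  rw [h1, ← hbr]
  calc a * b * a * (a * b * a) = a * b * (a * a) * b * a := by group
    _ = a * (b * b) * a := by rw [tt.sq a ha]; group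
    _ = a * a := by rw [tt.sq b hb]; group
    _ = 1 := tt.sq a ha

theorem chain_of {x v z y : G} (hx : x ∈ D) (hv : v ∈ D) (hz : z ∈ D) (hy : y ∈ D)
    (xz : Commute x z) (xy : Commute x y) (vy : Commute v y)
    (xv : ¬ Commute x v) (vz : ¬ Commute v z) (zy : ¬ Commute z y) :
    SymChain.IsChain (ch x v z y) 4 := by
  refine ⟨?_, ?_, ?_⟩
  · intro i hi
    interval_cases i
    · exact tt.sq x hx
    · exact tt.sq v hv
    · exact tt.sq z hz
    · exact tt.sq y hy
  · intro i hi
    have : i = 0 ∨ i = 1 ∨ i = 2 := by omega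
    rcases this with rfl | rfl | rfl
    · exact cube_of_braid tt hx hv xv
    · exact cube_of_braid tt hv hz vz
    · exact cube_of_braid tt hz hy zy
  · intro i j hij hj
    have : (i = 0 ∧ j = 2) ∨ (i = 0 ∧ j = 3) ∨ (i = 1 ∧ j = 3) := by omega
    rcases this with ⟨rfl, rfl⟩ | ⟨rfl, rfl⟩ | ⟨rfl, rfl⟩
    · exact xz
    · exact xy
    · exact vy

omit tt in
theorem exists_move : ∀ i j k l m : Fin 5, i ≠ j → i ≠ k → i ≠ l → i ≠ m → j ≠ k → j ≠ l → j ≠ m → k ≠ l → k ≠ m → l ≠ m →
    ∃ g : Perm (Fin 5), g 0 = i ∧ g 1 = j ∧ g 3 = k ∧ g 4 = l ∧ g 2 = m := by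
  intro i j k l m ij ik il im jk jl jm kl km lm
  obtain ⟨g, h0, h1, h3, h4⟩ := SymChain.exists_perm4 (m := 5) (p := 0) (q := 1) (r := 3) (s := 4)
    (p' := i) (q' := j) (r' := k) (s' := l) (by decide) (by decide) (by decide) (by decide) (by decide) (by decide)
    ij ik il jk jl kl
  refine ⟨g, h0, h1, h3, h4, ?_⟩
  have cov := cover5 i j k l m ij ik il im jk jl jm kl km lm (g 2)
  rcases cov with h | h | h | h | h
  · rw [← h0] at h; exact absurd (g.injective h) (by decide)
  · rw [← h1] at h; exact absurd (g.injective h) (by decide)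
  · rw [← h3] at h; exact absurd (g.injective h) (by decide)
  · rw [← h4] at h; exact absurd (g.injective h) (by decide)
  · exact h

theorem sys_of_chain {x v z y : G} (hx : x ∈ D) (hv : v ∈ D) (hz : z ∈ D) (hy : y ∈ D)
    (xz : Commute x z) (xy : Commute x y) (vy : Commute v y)
    (xv : ¬ Commute x v) (vz : ¬ Commute v z) (zy : ¬ Commute z y) (hxz : x ≠ z)
    (base : ∀ w ∈ D, Commute w x → w ≠ y → w ≠ z → (Commute w y ↔ Commute w z)) :
    ∃ φ : Perm (Fin 5) →* G, Sys D φ := by
  have hc := chain_of tt hx hv hz hy xz xy vy xv vz zy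
  obtain ⟨φ, hφ⟩ := SymChain.exists_hom hc
  have hinj : Function.Injective φ := SymChain.inj_of hφ (by norm_num)
    (fun h => xv (by
      have h' : x = v := h
      rw [h'])) (fun _ => hxz)
  have s0 : φ (swap 0 1) = x := by
    have := hφ 0 (by norm_num)
    have e : SymChain.sw 4 0 = swap (0 : Fin 5) 1 := by decide +kernel
    rwa [e] at this
  have s2 : φ (swap 2 3) = z := by
    have := hφ 2 (by norm_num)
    have e : SymChain.sw 4 2 = swap (2 : Fin 5) 3 := by decide +kernel
    rwa [e] at this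
  have s3 : φ (swap 3 4) = y := by
    have := hφ 3 (by norm_num)
    have e : SymChain.sw 4 3 = swap (3 : Fin 5) 4 := by decide +kernel
    rwa [e] at this
  have cj : ∀ (g : Perm (Fin 5)) (i j : Fin 5), φ (swap (g i) (g j)) = φ g * φ (swap i j) * (φ g)⁻¹ := by
    intro g i j
    rw [Equiv.swap_apply_apply, map_mul, map_mul, map_inv]
  refine ⟨φ, tt, hinj, ?_, ?_⟩
  · intro i j ij
    obtain ⟨k, l, m, kl, km, lm, ki, kj, li, lj, mi, mj⟩ := Sys.compl5 i j ij
    obtain ⟨g, h0, h1, -, -, -⟩ := exists_move i j k l m ij (Ne.symm ki) (Ne.symm li) (Ne.symm mi) (Ne.symm kj) (Ne.symm lj) (Ne.symm mj) kl km lm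
    rw [← h0, ← h1, cj, s0]
    exact tt.conj _ _ hx
  · intro i j k l m ij ik il im jk jl jm kl km lm w hw hc hn1 hn2
    obtain ⟨g, h0, h1, h3, h4, h2⟩ := exists_move i j k l m ij ik il im jk jl jm kl km lm
    have e0 : φ (swap i j) = φ g * x * (φ g)⁻¹ := by rw [← h0, ← h1, cj, s0]
    have e1 : φ (swap k l) = φ g * y * (φ g)⁻¹ := by rw [← h3, ← h4, cj, s3]
    have e2 : φ (swap k m) = φ g * z * (φ g)⁻¹ := by rw [← h3, ← h2, cj, swap_comm 3 2, s2]
    set w' := (φ g)⁻¹ * w * φ g with hw'
    have hww : w = φ g * w' * (φ g)⁻¹ := by rw [hw']; group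
    have hw'D : w' ∈ D := by
      have := tt.conj (φ g)⁻¹ w hw
      rwa [inv_inv] at this
    rw [e0, hww, commute_conj_iff] at hc
    rw [e1, hww, commute_conj_iff, e2, commute_conj_iff]
    refine base w' hw'D hc ?_ ?_
    · rintro rfl
      rw [e1, hww] at hn1
      exact hn1 rfl
    · rintro rfl
      rw [e2, hww] at hn2
      exact hn2 rfl

end constr

/-- The core computation with an odd normal subgroup. -/
theorem odd_core_aux {H : Type*} [Group H] [Finite H] (N : Subgroup H) [hNn : N.Normal] (hN : (Nat.card N).Coprime 2)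
    {w y z : H} (hw : w * w = 1) (hy : y * y = 1) (hz : z * z = 1) (hyz : y * z ∈ N) (hc : w * y = y * w)
    (hbr : w * z * w = z * w * z) (hne : w ≠ y) : False := by
  have hiw : w⁻¹ = w := inv_eq_of_mul_eq_one_left hw
  have hiy : y⁻¹ = y := inv_eq_of_mul_eq_one_left hy
  have hiz : z⁻¹ = z := inv_eq_of_mul_eq_one_left hz
  have e1 : (w * y) * (w * z)⁻¹ ∈ N := by
    have : (w * y) * (w * z)⁻¹ = w * (y * z) * w⁻¹ := by
      rw [mul_inv_rev, hiz]; group
    rw [this]
    exact hNn.conj_mem _ hyz w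
  have sq1 : (w * y) * (w * y) = 1 := by
    calc (w * y) * (w * y) = w * (y * w) * y := by group
      _ = w * (w * y) * y := by rw [hc]
      _ = (w * w) * (y * y) := by group
      _ = 1 := by rw [hw, hy, one_mul]
  have cu : (w * z) * (w * z) * (w * z) = 1 := by
    calc (w * z) * (w * z) * (w * z) = (w * z * w) * (z * w * z) := by group
      _ = (w * z * w) * (w * z * w) := by rw [hbr]
      _ = w * z * (w * w) * z * w := by group
      _ = w * (z * z) * w := by rw [hw]; group
      _ = w * w := by rw [hz]; group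
      _ = 1 := hw
  -- in the quotient
  have hq : ((w * y : H) : H ⧸ N) = ((w * z : H) : H ⧸ N) := by
    rw [QuotientGroup.eq]
    have : (w * y)⁻¹ * (w * z) = (w * y)⁻¹ * ((w * y) * (w * z)⁻¹)⁻¹ * (w * y) := by group
    rw [this]
    have h2 := hNn.conj_mem _ (N.inv_mem e1) (w * y)⁻¹
    rwa [inv_inv] at h2
  have g2 : ((w * z : H) : H ⧸ N) * ((w * z : H) : H ⧸ N) = 1 := by
    rw [← hq, ← QuotientGroup.mk_mul, sq1, QuotientGroup.mk_one]
  have g3 : ((w * z : H) : H ⧸ N) * ((w * z : H) : H ⧸ N) * ((w * z : H) : H ⧸ N) = 1 := by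
    rw [← QuotientGroup.mk_mul, ← QuotientGroup.mk_mul, cu, QuotientGroup.mk_one]
  have g1 : ((w * z : H) : H ⧸ N) = 1 := by
    rw [g2, one_mul] at g3
    exact g3
  have g0 : w * y ∈ N := by
    rw [← QuotientGroup.eq_one_iff, hq, g1]
  have hne1 : w * y ≠ 1 := by
    intro h
    apply hne
    have := eq_inv_of_mul_eq_one_left h
    rwa [hiy] at this
  let t : N := ⟨w * y, g0⟩
  have ht2 : t ^ 2 = 1 := by
    apply Subtype.ext
    show (w * y) ^ 2 = 1
    rw [pow_two, sq1]
  have ht1 : t ≠ 1 := fun h => hne1 (congrArg Subtype.val h)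
  have hord : orderOf t = 2 := orderOf_eq_prime ht2 ht1
  have hdvd : 2 ∣ Nat.card N := by
    rw [← hord]
    exact orderOf_dvd_natCard t
  have := Nat.Coprime.eq_one_of_dvd hN.symm hdvd
  omega


/-- An involution in a subgroup of odd order is trivial. -/
theorem inv_odd {H : Type*} [Group H] [Finite H] (N : Subgroup H) (hN : (Nat.card N).Coprime 2)
    {t : H} (ht : t ∈ N) (ht2 : t * t = 1) : t = 1 := by
  by_contra hne
  let t' : N := ⟨t, ht⟩
  have ht'2 : t' ^ 2 = 1 := by
    apply Subtype.ext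
    show t ^ 2 = 1
    rw [pow_two, ht2]
  have ht'1 : t' ≠ 1 := fun h => hne (congrArg Subtype.val h)
  have hord : orderOf t' = 2 := orderOf_eq_prime ht'2 ht'1
  have hdvd : 2 ∣ Nat.card N := by
    rw [← hord]
    exact orderOf_dvd_natCard t'
  have := Nat.Coprime.eq_one_of_dvd hN.symm hdvd
  omega

end Cfsg.Agent.Lib.Fischer.OddS5
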