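/-
A class of 3-transpositions in a group with no solvable normal subgroups and perfect derived group:
the derived group is simple.
-/
import Mathlib
import Cfsg.Agent.S5352
import Cfsg.Agent.Lib.Fischer.Prim
import Cfsg.Agent.Lib.Fischer.Struct

set_option autoImplicit false

namespace Cfsg.Agent.Lib.Fischer.Perfect

open Cfsg Cfsg.Agent.Lib.Fischer.Basic Cfsg.Agent.Lib.Fischer.Prim

variable {G : Type*} [Group G] [Finite G]

/-- The derived group of a Fischer group is non-abelian simple. -/
theorem simple_of_hsol {D : Set G}
    (hsol : ∀ N : Subgroup G, N.Normal → Group.IsSolvable ↥N → N = ⊥)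
    (hperf : ⁅commutator G, commutator G⁆ = commutator G) (hD : IsThreeTranspositionClass D) :
    IsSimpleGroup (commutator G) ∧ ∃ x y : commutator G, x * y ≠ y * x := by
  have h := TT.of_class hD
  have hp : ∀ p : ℕ, p.Prime → pCore p G = ⊥ := by
    intro p hp
    have : Fact p.Prime := ⟨hp⟩
    apply hsol _ (Cfsg.Agent.Lib.Basic.PCore.pCore_normal p G)
    haveI : Group.IsNilpotent (pCore p G) :=
      (Cfsg.Agent.Lib.Basic.PCore.pCore_isPGroup (G := G) p).isNilpotent
    infer_instance
  have hZ : Subgroup.center G = ⊥ := by
    apply hsol _ inferInstance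
    exact Group.isSolvable_of_comm (fun a b => Subtype.ext (Subgroup.mem_center_iff.1 b.2 a))
  obtain ⟨d, hd, -⟩ := hD.2.1
  have hD2 : ∃ a ∈ D, ∃ b ∈ D, a ≠ b := by
    by_contra hcon
    push Not at hcon
    have h1 : d ∈ Subgroup.center G :=
      Cfsg.Agent.Lib.Fischer.Struct.mem_center_of_commute hD.2.2 (fun e he => by
        rw [hcon d hd e he])
    rw [hZ, Subgroup.mem_bot] at h1
    exact h.ne_one d hd h1
  obtain ⟨L, hLn, hq, -, hL⟩ := Cfsg.Agent.S5352.result hD hD2
    (by rw [hp 2 Nat.prime_two]; exact bot_le) (by rw [hp 3 Nat.prime_three]; exact bot_le)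
  -- the centre of `L` is trivial
  have hZL : Subgroup.center L = ⊥ := by
    have hch : ((Subgroup.center L).map L.subtype).Normal :=
      Cfsg.Agent.Lib.Basic.PCore.map_subtype_normal_of_characteristic (Subgroup.center L)
    have hs0 : Group.IsSolvable (Subgroup.center L) :=
      Group.isSolvable_of_comm (fun a b => Subtype.ext (Subgroup.mem_center_iff.1 b.2 a))
    have hs : Group.IsSolvable ((Subgroup.center L).map L.subtype) :=
      solvable_of_surjective (f := L.subtype.subgroupMap (Subgroup.center L))
        (MonoidHom.subgroupMap_surjective _ _)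
    have h1 := hsol _ hch hs
    rwa [Subgroup.map_eq_bot_iff_of_injective _ L.subtype_injective] at h1
  have hLs : IsSimpleGroup L := by
    exact (MulEquiv.isSimpleGroup_congr ((QuotientGroup.quotientMulEquivOfEq hZL).trans
      (QuotientGroup.quotientBot (G := L)))).1 hq.2
  have hLle : L ≤ commutator G := by
    have h1 : ⁅L, L⁆ = L := Subgroup.isPerfect_iff.1 hq.1
    rw [← h1, commutator_def]
    exact Subgroup.commutator_mono le_top le_top
  have hGle : commutator G ≤ L := by
    by_cases hLtop : L = ⊤
    · rw [hLtop]
      exact le_top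
    · -- the quotient has width one
      have hW := hL.resolve_left hLtop
      have hne : ∀ a ∈ D, a ∉ L := by
        intro a ha haL
        apply hLtop
        rw [eq_top_iff, ← hD.2.2, Subgroup.closure_le]
        intro y hy
        obtain ⟨g, rfl⟩ := exists_conj hD ha hy
        exact hLn.conj_mem a haL g
      let φ := QuotientGroup.mk' L
      have hφL : ∀ {g : G}, φ g = 1 ↔ g ∈ L := by
        intro g
        exact QuotientGroup.eq_one_iff g
      have hTT : TT (φ '' D) :=
        { sq := by
            rintro _ ⟨a, ha, rfl⟩
            rw [← map_mul, h.sq a ha, map_one]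
          ne_one := by
            rintro _ ⟨a, ha, rfl⟩ k
            exact hne a ha (hφL.1 k)
          br := by
            rintro _ ⟨a, ha, rfl⟩ _ ⟨b, hb, rfl⟩
            rcases h.br a ha b hb with k | k
            · left
              exact k.map φ
            · right
              simp only [← map_mul]
              rw [k]
          conj := by
            rintro g _ ⟨a, ha, rfl⟩
            obtain ⟨g, rfl⟩ := QuotientGroup.mk'_surjective L g
            exact ⟨g * a * g⁻¹, h.conj g a ha, by rw [map_mul, map_mul, map_inv]⟩ }
      have hgen' : Subgroup.closure (φ '' D) = ⊤ := by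
        rw [← MonoidHom.map_closure, hD.2.2, ← MonoidHom.range_eq_map, MonoidHom.range_eq_top]
        exact QuotientGroup.mk'_surjective L
      have hw' : ∀ x ∈ φ '' D, ∀ y ∈ φ '' D, x ≠ y → ¬ Commute x y := by
        rintro _ ⟨a, ha, rfl⟩ _ ⟨b, hb, rfl⟩ hxy k
        apply hxy
        have h1 : φ (a * b * a⁻¹ * b⁻¹) = 1 := by
          rw [map_mul, map_mul, map_mul, map_inv, map_inv, k.eq]
          group
        have h2 := hW a ha b hb (hφL.1 h1)
        exact (QuotientGroup.eq).2 h2
      have hle' := commutator_le_of_width_one hgen' hTT ⟨φ d, d, hd, rfl⟩ hw'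
      have hKle : (commutator G).map φ ≤ pCore 3 (G ⧸ L) := by
        rw [commutator_def, Subgroup.map_commutator]
        exact (Subgroup.commutator_mono le_top le_top).trans hle'
      have : Fact (Nat.Prime 3) := ⟨Nat.prime_three⟩
      have hP : IsPGroup 3 ((commutator G).map φ) :=
        (Cfsg.Agent.Lib.Basic.PCore.pCore_isPGroup (G := G ⧸ L) 3).to_le hKle
      haveI : Group.IsNilpotent ((commutator G).map φ) := hP.isNilpotent
      haveI hpG : Group.IsPerfect (commutator G) := Subgroup.isPerfect_iff.2 hperf
      haveI hpK : Group.IsPerfect ((commutator G).map φ) :=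
        Group.IsPerfect.ofSurjective (f := φ.subgroupMap (commutator G))
          (MonoidHom.subgroupMap_surjective _ _)
      have hsub : Subsingleton ((commutator G).map φ) := by
        by_contra hns
        rw [not_subsingleton_iff_nontrivial] at hns
        exact Group.IsPerfect.not_isSolvable ((commutator G).map φ) inferInstance
      have hbot : (commutator G).map φ = ⊥ := Subgroup.eq_bot_of_subsingleton _
      rw [Subgroup.map_eq_bot_iff] at hbot
      rwa [QuotientGroup.ker_mk'] at hbot
  have hGL : commutator G = L := le_antisymm hGle hLle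
  rw [hGL]
  refine ⟨hLs, ?_⟩
  by_contra hcon
  push Not at hcon
  haveI := Cfsg.Agent.Lib.Components.Quasisimple.nontrivial_of_isQuasisimple hq
  haveI := hq.1
  exact Group.IsPerfect.not_isMulCommutative L ⟨⟨hcon⟩⟩

end Cfsg.Agent.Lib.Fischer.Perfect
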