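/-
Structure of 3-transposition groups, part 3: primitive groups of width at least two.
-/
import Mathlib
import Cfsg.Agent.Lib.Fischer.Struct2
import Cfsg.Agent.Lib.Fischer.Prim

set_option autoImplicit false

namespace Cfsg.Agent.Lib.Fischer.Struct3

open Cfsg Cfsg.Agent.Lib.Fischer.Basic Cfsg.Agent.Lib.Basic.PCore
open Cfsg.Agent.Lib.Components
open Cfsg.Agent.Lib.Fischer.Struct Cfsg.Agent.Lib.Fischer.Struct2
open Cfsg.Agent.Lib.Fischer.Width1
open scoped commutatorElement

variable {G : Type*} [Group G]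

/-- A transitive generating set of 3-transpositions is a class. -/
theorem class_of_prim {D : Set G} (hD : IsThreeTranspositionGroup D)
    (hprim : IsPrimitiveUnderConj D) : IsThreeTranspositionClass D := by
  obtain ⟨a, ha, -⟩ := hprim.2.1
  refine ⟨hD.1, ⟨a, ha, ?_⟩, hD.2.2⟩
  ext y
  constructor
  · intro hy
    obtain ⟨g, hg⟩ := hprim.1 a ha y hy
    show IsConj a y
    exact isConj_iff.mpr ⟨g, hg⟩
  · intro hy
    have hy' : IsConj a y := hy
    obtain ⟨g, rfl⟩ := isConj_iff.mp hy'
    exact hD.2.1 g a ha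

/-- A normal subgroup of a primitive group is central or contains all products. -/
theorem central_or_all {D : Set G} (hD : IsThreeTranspositionClass D)
    (hprim : IsPrimitiveUnderConj D) {N : Subgroup G} (hN : N.Normal) :
    N ≤ Subgroup.center G ∨ ∀ a ∈ D, ∀ b ∈ D, a * b ∈ N := by
  have h := TT.of_class hD
  obtain ⟨d, hd, -⟩ := id hprim.2.1
  have hdi := h.inv_eq hd
  -- The coset block
  let Bc : G → Set G := fun c => {e | e ∈ D ∧ c⁻¹ * e ∈ N}
  have hconj : ∀ g c : G, c ∈ D → (fun x => g * x * g⁻¹) '' (Bc c) = Bc (g * c * g⁻¹) := by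
    intro g c _
    ext y
    constructor
    · rintro ⟨e, ⟨heD, hec⟩, rfl⟩
      refine ⟨h.conj g e heD, ?_⟩
      have e1 : (g * c * g⁻¹)⁻¹ * (g * e * g⁻¹) = g * (c⁻¹ * e) * g⁻¹ := by group
      rw [e1]
      exact hN.conj_mem _ hec g
    · rintro ⟨hyD, hyc⟩
      refine ⟨g⁻¹ * y * g, ⟨?_, ?_⟩, by group⟩
      · have := h.conj g⁻¹ y hyD
        simpa using this
      · have := hN.conj_mem _ hyc g⁻¹
        have e1 : g⁻¹ * ((g * c * g⁻¹)⁻¹ * y) * g⁻¹⁻¹ = c⁻¹ * (g⁻¹ * y * g) := by group
        rwa [e1] at this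
  have hdisj : ∀ c c' : G, c⁻¹ * c' ∈ N → Bc c' = Bc c := by
    intro c c' hcc
    ext y
    constructor
    · rintro ⟨hy, hyc⟩
      refine ⟨hy, ?_⟩
      have := N.mul_mem hcc hyc
      have e1 : c⁻¹ * c' * (c'⁻¹ * y) = c⁻¹ * y := by group
      rwa [e1] at this
    · rintro ⟨hy, hyc⟩
      refine ⟨hy, ?_⟩
      have := N.mul_mem (N.inv_mem hcc) hyc
      have e1 : (c⁻¹ * c')⁻¹ * (c⁻¹ * y) = c'⁻¹ * y := by group
      rwa [e1] at this
  have hblock := hprim.2.2 (Bc d) (fun e he => he.1) (by
    intro g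
    rw [hconj g d hd]
    by_cases hm : d⁻¹ * (g * d * g⁻¹) ∈ N
    · left
      exact hdisj _ _ hm
    · right
      rw [Set.disjoint_left]
      rintro y ⟨_, hy1⟩ ⟨_, hy2⟩
      apply hm
      have := N.mul_mem hy2 (N.inv_mem hy1)
      have e1 : d⁻¹ * y * ((g * d * g⁻¹)⁻¹ * y)⁻¹ = d⁻¹ * (g * d * g⁻¹) := by group
      rwa [e1] at this)
  have hdB : d ∈ Bc d := ⟨hd, by rw [inv_mul_cancel]; exact N.one_mem⟩
  rcases hblock with hs | hs
  · left
    intro t ht
    -- `N` centralizes `d`
    have hcd : ∀ t ∈ N, Commute t d := by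
      intro t ht
      have hm : t * d * t⁻¹ ∈ Bc d := by
        refine ⟨h.conj t d hd, ?_⟩
        have e1 : d⁻¹ * (t * d * t⁻¹) = (d⁻¹ * t * d) * t⁻¹ := by group
        rw [e1]
        refine N.mul_mem ?_ (N.inv_mem ht)
        have := hN.conj_mem t ht d⁻¹
        simpa using this
      have e2 := hs hm hdB
      show t * d = d * t
      have : t * d * t⁻¹ * t = d * t := by rw [e2]
      rwa [inv_mul_cancel_right] at this
    apply mem_center_of_commute hD.2.2
    intro y hy
    obtain ⟨g, rfl⟩ := exists_conj hD hd hy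
    have ht' : g⁻¹ * t * g ∈ N := by
      have := hN.conj_mem t ht g⁻¹
      simpa using this
    have h1 := (commute_conj_iff g (g⁻¹ * t * g) d).mpr (hcd _ ht')
    have e1 : g * (g⁻¹ * t * g) * g⁻¹ = t := by group
    rw [e1] at h1
    exact h1.symm
  · right
    intro a ha b hb
    have ha' : a ∈ Bc d := by rw [hs]; exact ha
    have hb' : b ∈ Bc d := by rw [hs]; exact hb
    have h1 := ha'.2
    have h2 := hb'.2
    rw [hdi] at h1 h2
    -- `a b = (a d) (d b)`, `a d = (d a)⁻¹`
    have h3 : a * d ∈ N := by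
      have := N.inv_mem h1
      rwa [mul_inv_rev, h.inv_eq ha, hdi] at this
    have := N.mul_mem h3 h2
    have e1 : a * d * (d * b) = a * (d * d) * b := by group
    rwa [e1, h.sq d hd, mul_one] at this

/-- `O₂` is central in a primitive group. -/
theorem pCore_two_central [Finite G] {D : Set G} (hD : IsThreeTranspositionClass D)
    (hprim : IsPrimitiveUnderConj D) : pCore 2 G ≤ Subgroup.center G := by
  have h := TT.of_class hD
  have : Fact (Nat.Prime 2) := ⟨Nat.prime_two⟩
  rcases central_or_all hD hprim (pCore_normal 2 G) with hc | hall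
  · exact hc
  · exfalso
    obtain ⟨a, ha, b, hb, hab⟩ := id hprim.2.1
    obtain ⟨e, he, hne⟩ := exists_anti hD hprim.2.1 ha
    have hm := hall a ha e he
    have hbr := (h.br a ha e he).resolve_left hne
    have h3' : (a * e) ^ 3 = 1 := by
      have e1 : (a * e) ^ 3 = (a * e * a) * (e * a * e) := by rw [pow_three]; group
      rw [e1, hbr]
      calc e * a * e * (e * a * e) = e * a * (e * e) * a * e := by group
        _ = e * (a * a) * e := by rw [h.sq e he]; group
        _ = 1 := by rw [h.sq a ha, mul_one, h.sq e he]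
    obtain ⟨n, hn⟩ := (pCore_isPGroup (G := G) 2) ⟨a * e, hm⟩
    have hpow : (a * e) ^ (2 ^ n) = 1 := by simpa using congrArg Subtype.val hn
    have hg : Nat.gcd (2 ^ n) 3 = 1 := Nat.Coprime.pow_left _ (by norm_num)
    have hord := Nat.dvd_gcd (orderOf_dvd_of_pow_eq_one hpow) (orderOf_dvd_of_pow_eq_one h3')
    rw [hg] at hord
    have h1 : a * e = 1 := by
      rw [← pow_one (a * e)]
      exact orderOf_dvd_iff_pow_eq_one.1 hord
    have h2 : a = e := by
      calc a = a * e * e := by rw [mul_assoc, h.sq e he, mul_one]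
        _ = e := by rw [h1, one_mul]
    apply hne
    rw [← h2]

/-- `O₃` is central in a primitive group of width at least two. -/
theorem pCore_three_central [Finite G] {D : Set G} (hD : IsThreeTranspositionClass D)
    (hprim : IsPrimitiveUnderConj D) (hw : ∃ a ∈ D, ∃ b ∈ D, a ≠ b ∧ Commute a b) :
    pCore 3 G ≤ Subgroup.center G := by
  have h := TT.of_class hD
  have : Fact (Nat.Prime 3) := ⟨Nat.prime_three⟩
  rcases central_or_all hD hprim (pCore_normal 3 G) with hc | hall
  · exact hc
  · exfalso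
    obtain ⟨a, ha, b, hb, hab, hc⟩ := hw
    have hm := hall a ha b hb
    have h1 : (a * b) * (a * b) = 1 := by
      calc (a * b) * (a * b) = a * (b * a) * b := by group
        _ = a * (a * b) * b := by rw [hc.eq.symm]
        _ = (a * a) * (b * b) := by group
        _ = 1 := by rw [h.sq a ha, h.sq b hb, one_mul]
    have h2 := eq_one_of_sq_of_isPGroup (pCore_isPGroup (G := G) 3) hm h1
    apply hab
    calc a = a * b * b := by rw [mul_assoc, h.sq b hb, mul_one]
      _ = b := by rw [h2, one_mul]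

/-- Structure of a primitive group of width at least two. -/
theorem prim_structure [Finite G] {D : Set G} (hD : IsThreeTranspositionClass D)
    (hprim : IsPrimitiveUnderConj D) (hw : ∃ a ∈ D, ∃ b ∈ D, a ≠ b ∧ Commute a b) :
    (∃ L : Subgroup G, L.Normal ∧ IsQuasisimple L ∧ L.index ≤ 2 ∧
      generalizedFittingSubgroup G = L ⊔ Subgroup.center G) ∧ (commutingGraph D).Connected := by
  have h := TT.of_class hD
  have hconn := Cfsg.Agent.Lib.Fischer.Prim.connected_of_prim h hprim hw
  have h2 := pCore_two_central hD hprim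
  have h3 := pCore_three_central hD hprim hw
  obtain ⟨L, hLn, hq, hF, -⟩ := structure_of_central hD hprim.2.1 h2 h3
  have hfit := fitting_le_center_of_two_three hD h2 h3
  have hC := centralizer_le_center hLn hF hfit
  exact ⟨⟨L, hLn, hq, index_le_two_of_connected hD hprim.2.1 hLn hq hC hconn, hF⟩, hconn⟩

/-- The maximal `D`-subgroup. -/
theorem closure_maximal [Finite G] {D : Set G} (hD : IsThreeTranspositionClass D)
    (hprim : IsPrimitiveUnderConj D) (hw : ∃ a ∈ D, ∃ b ∈ D, a ≠ b ∧ Commute a b) {d : G} (hd : d ∈ D) :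
    Subgroup.closure {y : G | y ∈ D ∧ Commute d y} ≠ ⊤ ∧ ∀ H : Subgroup G, IsDSubgroup D H →
      Subgroup.closure {y : G | y ∈ D ∧ Commute d y} ≤ H →
        H = Subgroup.closure {y : G | y ∈ D ∧ Commute d y} ∨ H = ⊤ := by
  have h := TT.of_class hD
  constructor
  · intro htop
    apply not_mem_center hD hprim.2.1 hd
    rw [Subgroup.mem_center_iff]
    intro g
    have hg : g ∈ Cfsg.Agent.Lib.Fischer.Rank3.Cl D d := by
      show g ∈ Subgroup.closure {y : G | y ∈ D ∧ Commute d y}
      rw [htop]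
      trivial
    exact Cfsg.Agent.Lib.Fischer.Rank3.commute_of_mem_Cl hg
  · intro H hH hle
    by_cases heq : H = Subgroup.closure {y : G | y ∈ D ∧ Commute d y}
    · exact Or.inl heq
    · right
      have hex : ∃ c, c ∈ D ∧ c ∈ H ∧ c ∉ Subgroup.closure {y : G | y ∈ D ∧ Commute d y} := by
        by_contra hno
        push Not at hno
        apply heq
        apply le_antisymm _ hle
        rw [← hH, Subgroup.closure_le]
        rintro c ⟨hc, hcH⟩
        exact hno c hc hcH
      obtain ⟨c, hc, hcH, hcn⟩ := hex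
      have hdc : ¬ Commute d c := fun k => hcn (Subgroup.subset_closure ⟨hc, k⟩)
      have hmod := Cfsg.Agent.Lib.Fischer.Prim.noMod_of_prim h hD.2.2 hprim hw
      rw [eq_top_iff, ← hD.2.2, Subgroup.closure_le]
      intro y hy
      by_cases hdy : Commute d y
      · exact hle (Subgroup.subset_closure ⟨hy, hdy⟩)
      · obtain ⟨g, hg, rfl⟩ := Cfsg.Agent.Lib.Fischer.Rank3.rank3 h hprim.1 hmod hw hd hc hy hdc hdy
        exact H.mul_mem (H.mul_mem (hle hg) hcH) (H.inv_mem (hle hg))

end Cfsg.Agent.Lib.Fischer.Struct3
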